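/-
Core library, Hall–Higman: a quadratically acting abelian normal subgroup in a derived chain.

If a `p`-group `T`, `p` odd, normalises a `q`-group `Q` in characteristic `p`, if `A = T_j` for a chain with
`T_{i+1} ≤ [T_i, T_i]`, if `A` acts quadratically and the products `(t_j - 1) ⋯ (t_0 - 1)` with `t_i ∈ T_i`
vanish, then `A` commutes with `Q`.  This is what the bound of the p-length by the derived length needs.
-/
import Cfsg.Agent.Core.HallHigman.PLengthBound

set_option autoImplicit false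
set_option linter.style.haveILetI false
set_option linter.unusedSectionVars false

namespace Cfsg.Agent.Core.HH.Quad

open Module
open scoped commutatorElement

universe u v

section basics

variable {K : Type*} [Field K] {M : Type v} [AddCommGroup M] [Module K M] {H : Type u} [Group H]
  (ρ : H →* Module.End K M)

/-- The product `(t_{n-1} - 1) ⋯ (t_0 - 1)`. -/
def dprod (t : ℕ → H) : ℕ → Module.End K M
  | 0 => 1
  | n + 1 => (ρ (t n) - 1) * dprod t n

theorem dprod_succ' (t : ℕ → H) : ∀ n, dprod ρ t (n + 1) = dprod ρ (fun i => t (i + 1)) n * (ρ (t 0) - 1) := by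
  intro n
  induction n with
  | zero => simp [dprod]
  | succ n ih =>
    rw [dprod, ih, dprod, mul_assoc]

theorem rho_inv (x : H) : ρ x * ρ x⁻¹ = 1 ∧ ρ x⁻¹ * ρ x = 1 := by
  rw [← map_mul, ← map_mul, mul_inv_cancel, inv_mul_cancel, map_one]
  exact ⟨rfl, rfl⟩

theorem conj_sub_one (x : H) (Y : Module.End K M) : ρ x * (Y - 1) * ρ x⁻¹ = ρ x * Y * ρ x⁻¹ - 1 := by
  rw [mul_sub, sub_mul, mul_one, (rho_inv ρ x).1]

theorem rho_ne_zero [Nontrivial M] (x : H) : ρ x ≠ 0 := fun h => by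
  have h1 := (rho_inv ρ x).1
  rw [h, zero_mul] at h1
  exact zero_ne_one h1

/-- The elements whose images commute with the images of `S`. -/
def czS (S : Set H) : Subgroup H := (Subgroup.centralizer (ρ.toHomUnits '' S)).comap ρ.toHomUnits

theorem mem_czS {S : Set H} {x : H} : x ∈ czS ρ S ↔ ∀ s ∈ S, ρ (s * x) = ρ (x * s) := by
  simp only [czS, Subgroup.mem_comap, Subgroup.mem_centralizer_iff, Set.forall_mem_image]
  refine forall₂_congr fun s _ => ?_
  rw [← map_mul, ← map_mul, Units.ext_iff, MonoidHom.coe_toHomUnits, MonoidHom.coe_toHomUnits]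

theorem mem_czS_symm {S : Set H} {x : H} (h : ∀ s ∈ S, ρ (x * s) = ρ (s * x)) : x ∈ czS ρ S :=
  (mem_czS ρ).mpr fun s hs => (h s hs).symm

/-- If `a g a⁻¹ = g r` in the image with `r` commuting with `a`, `a` of order `p` and `r` of `q`-power order,
then `a` and `g` commute in the image. -/
theorem comm_of_conj {p q : ℕ} (hcop : Nat.Coprime p q) {a g r : H} (hr : ρ (a * g * a⁻¹) = ρ (g * r))
    (har : ρ (a * r) = ρ (r * a)) (hap : ρ a ^ p = 1) (hq : ∃ k, r ^ q ^ k = 1) :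
    ρ (a * g) = ρ (g * a) := by
  set f := ρ.toHomUnits with hf
  have eq : ∀ x y : H, ρ x = ρ y → f x = f y := fun x y h => Units.ext h
  have h1 : f a * f g * (f a)⁻¹ = f g * f r := by rw [← map_inv, ← map_mul, ← map_mul, ← map_mul]; exact eq _ _ hr
  have h2 : f a * f r = f r * f a := by rw [← map_mul, ← map_mul]; exact eq _ _ har
  have h3 : ∀ k : ℕ, f a ^ k * f g = f g * f r ^ k * f a ^ k := by
    intro k
    induction k with
    | zero => simp
    | succ k ih =>
      calc f a ^ (k + 1) * f g = f a * (f a ^ k * f g) := by rw [pow_succ', mul_assoc]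
        _ = (f a * f g * (f a)⁻¹) * (f a * f r ^ k) * f a ^ k := by rw [ih]; group
        _ = (f g * f r) * (f r ^ k * f a) * f a ^ k := by
          rw [h1, show f a * f r ^ k = f r ^ k * f a from (show Commute (f a) (f r) from h2).pow_right k]
        _ = f g * f r ^ (k + 1) * f a ^ (k + 1) := by rw [pow_succ', pow_succ' (f a)]; group
  have h4 : f a ^ p = 1 := Units.ext (by rw [Units.val_pow_eq_pow_val]; exact hap)
  have h5 := h3 p
  rw [h4, one_mul, mul_one, left_eq_mul] at h5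
  obtain ⟨k, hk⟩ := hq
  have h6 : f r ^ q ^ k = 1 := by rw [← map_pow, hk, map_one]
  have h7 : f r = 1 := by
    have h8 := pow_gcd_eq_one.mpr ⟨h5, h6⟩
    rwa [Nat.coprime_iff_gcd_eq_one.mp (hcop.pow_right k), pow_one] at h8
  rw [h7, mul_one, mul_inv_eq_iff_eq_mul] at h1
  rw [← map_mul, ← map_mul] at h1
  exact congrArg Units.val h1

theorem pow_p_eq_one {p : ℕ} [hp : Fact p.Prime] [CharP K p] {a : H} (h : (ρ a - 1) * (ρ a - 1) = 0) :
    ρ a ^ p = 1 := by
  have h1 : (ρ a - 1) ^ p = 0 := by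
    rw [show p = 2 + (p - 2) by have := hp.out.two_le; omega, pow_add, pow_two, h, zero_mul]
  have h2 := sub_one_pow_char_pow (K := K) (p := p) (ρ a) 1
  rw [pow_one, h1] at h2
  exact (sub_eq_zero.mp h2.symm)

/-- The stabiliser of a subspace. -/
def stab [Finite H] (W : Submodule K M) : Subgroup H where
  carrier := {h | ∀ w ∈ W, ρ h w ∈ W}
  one_mem' := fun w hw => by simpa using hw
  mul_mem' := fun {x y} hx hy w hw => by
    rw [map_mul, Module.End.mul_apply]
    exact hx _ (hy w hw)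
  inv_mem' := fun {x} hx => by
    have hp : ∀ k : ℕ, ∀ w ∈ W, ρ (x ^ k) w ∈ W := by
      intro k
      induction k with
      | zero => intro w hw; simpa using hw
      | succ k ih => intro w hw; rw [pow_succ, map_mul, Module.End.mul_apply]; exact ih _ (hx w hw)
    rw [show x⁻¹ = x ^ (orderOf x - 1) from (inv_eq_of_mul_eq_one_right (by
      rw [← pow_succ', Nat.sub_add_cancel (orderOf_pos x), pow_orderOf_eq_one]))]
    exact hp _

/-- The representation on an invariant subspace. -/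
def res [Finite H] (W : Submodule K M) : stab ρ W →* Module.End K W where
  toFun h := (ρ (h : H)).restrict h.2
  map_one' := LinearMap.ext fun w => Subtype.ext (by simp)
  map_mul' x y := LinearMap.ext fun w => Subtype.ext (by
    show ρ ((x * y : stab ρ W) : H) (w : M) = ρ (x : H) (ρ (y : H) (w : M))
    rw [Subgroup.coe_mul, map_mul, Module.End.mul_apply])

theorem coe_res [Finite H] (W : Submodule K M) (h : stab ρ W) (w : W) :
    ((res ρ W h w : W) : M) = ρ (h : H) (w : M) := rfl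

theorem coe_dprod_res [Finite H] (W : Submodule K M) (t : ℕ → stab ρ W) (w : W) :
    ∀ n, ((dprod (res ρ W) t n w : W) : M) = dprod ρ (fun i => (t i : H)) n (w : M) := by
  intro n
  induction n with
  | zero => simp [dprod]
  | succ n ih =>
    simp only [dprod, Module.End.mul_apply, LinearMap.sub_apply, Module.End.one_apply, AddSubgroupClass.coe_sub,
      coe_res, ih]

/-- A common eigenvector of a commuting family. -/
theorem exists_common [IsAlgClosed K] [FiniteDimensional K M] (S : Set (Module.End K M))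
    (hS : ∀ x ∈ S, ∀ y ∈ S, x * y = y * x) (W : Submodule K M) (hW : W ≠ ⊥) (hinv : ∀ x ∈ S, ∀ w ∈ W, x w ∈ W) :
    ∃ u ∈ W, u ≠ 0 ∧ ∀ x ∈ S, ∃ c : K, x u = c • u := by
  classical
  let Pr : ℕ → Prop := fun n => ∃ U ≤ W, U ≠ ⊥ ∧ (∀ x ∈ S, ∀ w ∈ U, x w ∈ U) ∧ finrank K U = n
  have hex : ∃ n, Pr n := ⟨_, W, le_rfl, hW, hinv, rfl⟩
  obtain ⟨U, hUW, hU0, hUi, hUn⟩ := Nat.find_spec hex
  obtain ⟨u, hu, hu0⟩ := Submodule.exists_mem_ne_zero_of_ne_bot hU0
  refine ⟨u, hUW hu, hu0, fun x hx => ?_⟩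
  haveI : Nontrivial U := Submodule.nontrivial_iff_ne_bot.mpr hU0
  obtain ⟨c, hc⟩ := Module.End.exists_eigenvalue (x.restrict (hUi x hx))
  obtain ⟨⟨v, hv⟩, hvc, hv0⟩ := hc.exists_hasEigenvector
  rw [Module.End.mem_eigenspace_iff] at hvc
  have hvc' : x v = c • v := congrArg Subtype.val hvc
  refine ⟨c, ?_⟩
  let U' : Submodule K M := U ⊓ Module.End.eigenspace x c
  have hU' : Pr (finrank K U') := by
    refine ⟨U', inf_le_left.trans hUW, fun h => hv0 (Subtype.ext ?_), fun y hy w hw => ⟨hUi y hy w hw.1, ?_⟩, rfl⟩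
    · have : v ∈ U' := ⟨hv, Module.End.mem_eigenspace_iff.mpr hvc'⟩
      rw [h] at this
      simpa using this
    · have h1 := Module.End.mem_eigenspace_iff.mp hw.2
      show y w ∈ Module.End.eigenspace x c
      rw [Module.End.mem_eigenspace_iff, ← Module.End.mul_apply, hS x hx y hy, Module.End.mul_apply, h1, map_smul]
  have h2 := Nat.find_min' hex hU'
  rw [← hUn] at h2
  have h3 : U' = U := Submodule.eq_of_le_of_finrank_le inf_le_left h2
  have h4 : u ∈ U' := h3.symm ▸ hu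
  exact Module.End.mem_eigenspace_iff.mp h4.2

end basics

theorem map_conj_commutator {G : Type*} [Group G] {A : Subgroup G} {t : G} (ht : t ∈ Subgroup.normalizer (A : Set G)) :
    t ∈ Subgroup.normalizer ((⁅A, A⁆ : Subgroup G) : Set G) := by
  have key : ∀ u ∈ Subgroup.normalizer (A : Set G), ∀ x ∈ (⁅A, A⁆ : Subgroup G), u * x * u⁻¹ ∈ (⁅A, A⁆ : Subgroup G) := by
    intro u hu x hx
    have hle : A.map (MulAut.conj u).toMonoidHom ≤ A := by
      rintro _ ⟨z, hz, rfl⟩
      exact (Subgroup.mem_normalizer_iff.mp hu z).mp hz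
    have h := Subgroup.mem_map_of_mem (MulAut.conj u).toMonoidHom hx
    rw [Subgroup.map_commutator] at h
    exact Subgroup.commutator_mono hle hle h
  refine Subgroup.mem_normalizer_iff.mpr fun x => ⟨key t ht x, fun h => ?_⟩
  have h' := key t⁻¹ ((Subgroup.normalizer _).inv_mem ht) _ h
  simpa [mul_assoc] using h'


section setup

variable {K : Type*} [Field K] {M : Type v} [AddCommGroup M] [Module K M] {H : Type u} [Group H]

/-- The hypotheses. -/
structure Setup (p q : ℕ) (ρ : H →* Module.End K M) (Q : Subgroup H) (T : ℕ → Subgroup H) (j : ℕ) : Prop where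
  hQ : IsPGroup q Q
  hT : ∀ i, T (i + 1) ≤ ⁅T i, T i⁆
  hT0 : IsPGroup p (T 0)
  hTQ : T 0 ≤ Subgroup.normalizer (Q : Set H)
  hA : T 0 ≤ Subgroup.normalizer (T j : Set H)
  hcomm : ∀ a ∈ T j, ∀ b ∈ T j, ρ (a * b) = ρ (b * a)
  hquad : ∀ a ∈ T j, ∀ b ∈ T j, (ρ a - 1) * (ρ b - 1) = 0
  hkill : ∀ t : ℕ → H, (∀ i, t i ∈ T i) → dprod ρ t (j + 1) = 0

theorem commutator_le_self (A : Subgroup H) : ⁅A, A⁆ ≤ A :=
  Subgroup.commutator_le.mpr fun _ hx _ hy => A.mul_mem (A.mul_mem (A.mul_mem hx hy) (A.inv_mem hx)) (A.inv_mem hy)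

theorem chain_antitone {T : ℕ → Subgroup H} (hT : ∀ i, T (i + 1) ≤ ⁅T i, T i⁆) (i : ℕ) : T i ≤ T 0 := by
  induction i with
  | zero => exact le_rfl
  | succ i ih => exact ((hT i).trans (commutator_le_self _)).trans ih

theorem chain_le {T : ℕ → Subgroup H} (hT : ∀ i, T (i + 1) ≤ ⁅T i, T i⁆) (k : ℕ) : ∀ i, T (i + k) ≤ T k := by
  intro i
  induction i with
  | zero => rw [zero_add]
  | succ i ih => rw [show i + 1 + k = i + k + 1 by omega]; exact ((hT _).trans (commutator_le_self _)).trans ih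

end setup

section core

variable {K : Type*} [Field K] {M : Type v} [AddCommGroup M] [Module K M] {H : Type u} [Group H]
  [Finite H]

theorem commutative_of_card_dvd {p : ℕ} [hp : Fact p.Prime] {G : Type*} [Group G] (hG : IsPGroup p G) [Finite G]
    (hdvd : Nat.card G ∣ 24) (hp2 : p ≠ 2) (x y : G) : x * y = y * x := by
  obtain ⟨n, hn⟩ := IsPGroup.iff_card.mp hG
  have hn1 : n ≤ 1 := by
    by_contra hcon
    have h : p ^ 2 ∣ 24 := (pow_dvd_pow p (by omega : 2 ≤ n)).trans (hn ▸ hdvd)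
    have hle := Nat.le_of_dvd (by norm_num) h
    have hp5 : p < 5 := by
      by_contra hcon'
      have := Nat.pow_le_pow_left (show 5 ≤ p by omega) 2
      omega
    have := hp.out.two_le
    interval_cases p <;> simp_all
  haveI : IsCyclic G := by
    rcases Nat.le_one_iff_eq_zero_or_eq_one.mp hn1 with h | h
    · haveI : Subsingleton G := (Nat.card_eq_one_iff_unique.mp (by rw [hn, h, pow_zero])).1
      exact ⟨⟨1, fun g => Subsingleton.elim (1 : G) g ▸ Subgroup.mem_zpowers _⟩⟩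
    · exact isCyclic_of_prime_card (p := p) (by rw [hn, h, pow_one])
  obtain ⟨g, hg⟩ := IsCyclic.exists_generator (α := G)
  obtain ⟨a, rfl⟩ := Subgroup.mem_zpowers_iff.mp (hg x)
  obtain ⟨b, rfl⟩ := Subgroup.mem_zpowers_iff.mp (hg y)
  rw [← zpow_add, ← zpow_add, add_comm]

set_option maxHeartbeats 1600000 in
/-- The homogeneous case: the centre of the image of `Q` is scalar and `[A, Q] = Q`. -/
theorem core {p q : ℕ} [hp : Fact p.Prime] [hq : Fact q.Prime] [CharP K p] (hp2 : p ≠ 2) (hpq : p ≠ q)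
    [Nontrivial M] {ρ : H →* Module.End K M} {Q : Subgroup H} {T : ℕ → Subgroup H} {j : ℕ}
    (S : Setup p q ρ Q T j) (hj : 1 ≤ j)
    (hgen : Q ≤ Subgroup.closure {x | ∃ a ∈ T j, ∃ g ∈ Q, x = g⁻¹ * (a * g * a⁻¹)})
    (hpw : ∀ g ∈ Q, g ^ q ∈ czS ρ Q) (hcm : ∀ g ∈ Q, ∀ h ∈ Q, g * h * g⁻¹ * h⁻¹ ∈ czS ρ Q)
    (hscal : ∀ z ∈ Q, z ∈ czS ρ Q → ∃ c : K, ρ z = c • 1) :
    ∀ a ∈ T j, ∀ g ∈ Q, ρ (a * g) = ρ (g * a) := by
  classical
  by_contra hcon
  push Not at hcon
  obtain ⟨a, ha, g₀, hg₀, hag₀⟩ := hcon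
  have hcop : Nat.Coprime p q := (Nat.coprime_primes hp.out hq.out).mpr hpq
  have hqK : (q : K) ≠ 0 := fun h =>
    hpq ((Nat.prime_dvd_prime_iff_eq hp.out hq.out).mp ((CharP.cast_eq_zero_iff K p q).mp h))
  have hqord : ∀ r ∈ Q, ∃ k, r ^ q ^ k = 1 := fun r hr => by
    obtain ⟨k, hk⟩ := S.hQ ⟨r, hr⟩
    exact ⟨k, congrArg Subtype.val hk⟩
  have hconjQ : ∀ t ∈ T 0, ∀ g ∈ Q, t * g * t⁻¹ ∈ Q := fun t ht g hg =>
    (Subgroup.mem_normalizer_iff.mp (S.hTQ ht) g).mp hg
  have hA0 : T j ≤ T 0 := chain_antitone S.hT j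
  have hAp : ∀ b ∈ T j, ρ b ^ p = 1 := fun b hb => pow_p_eq_one ρ (S.hquad b hb b hb)
  have hscomm : ∀ z ∈ Q, z ∈ czS ρ Q → ∀ x, ρ (x * z) = ρ (z * x) := fun z hz hz' x => by
    obtain ⟨c, hc⟩ := hscal z hz hz'
    rw [map_mul, map_mul, hc, mul_smul_comm, smul_mul_assoc, mul_one, one_mul]
  -- the quotient by the central part
  let Zs : Subgroup Q := (czS ρ (Q : Set H)).subgroupOf Q
  have hmemZs : ∀ x : Q, x ∈ Zs ↔ (x : H) ∈ czS ρ Q := fun x => Subgroup.mem_subgroupOf
  haveI hZn : Zs.Normal := ⟨fun z hz x => by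
    rw [hmemZs] at hz ⊢
    have h1 := hcm x x.2 z z.2
    have h2 := (czS ρ (Q : Set H)).mul_mem h1 hz
    simpa [mul_assoc] using h2⟩
  let mk : Q →* Q ⧸ Zs := QuotientGroup.mk' Zs
  have hmksurj : Function.Surjective mk := QuotientGroup.mk'_surjective Zs
  have hmk1 : ∀ x : Q, mk x = 1 ↔ (x : H) ∈ czS ρ Q := fun x => by
    rw [← hmemZs]; exact QuotientGroup.eq_one_iff x
  have hUcomm : ∀ u v : Q ⧸ Zs, u * v = v * u := fun u v => by
    obtain ⟨x, rfl⟩ := hmksurj u
    obtain ⟨y, rfl⟩ := hmksurj v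
    rw [← mul_inv_eq_one, mul_inv_rev]
    have : mk (x * y * x⁻¹ * y⁻¹) = 1 := (hmk1 _).mpr (by push_cast; exact hcm x x.2 y y.2)
    simpa [map_mul, map_inv, mul_assoc] using this
  have hUq : ∀ u : Q ⧸ Zs, u ^ q = 1 := fun u => by
    obtain ⟨x, rfl⟩ := hmksurj u
    rw [← map_pow]
    exact (hmk1 _).mpr (by push_cast; exact hpw x x.2)
  -- the action of `T 0`
  let cj : T 0 →* MulAut Q := (Subgroup.normalizerMonoidHom Q).comp (Subgroup.inclusion S.hTQ)
  have hcj : ∀ (t : T 0) (x : Q), ((cj t x : Q) : H) = t * x * (t : H)⁻¹ := fun t x => rfl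
  have hZinv : ∀ (t : T 0) (x : Q), x ∈ Zs → cj t x ∈ Zs := fun t x hx => by
    rw [hmemZs, mem_czS] at hx ⊢
    intro s hs
    rw [hcj]
    have h0 : (t : H)⁻¹ * s * t ∈ Q := by simpa using hconjQ _ ((T 0).inv_mem t.2) s hs
    have h1 := congrArg (fun y => ρ (t : H) * y * ρ (t : H)⁻¹) (hx _ h0)
    simp only [← map_mul] at h1
    convert h1 using 2 <;> group
  let act : T 0 → (Q ⧸ Zs →* Q ⧸ Zs) := fun t => QuotientGroup.map Zs Zs (cj t).toMonoidHom (fun x hx => hZinv t x hx)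
  have hact : ∀ t x, act t (mk x) = mk (cj t x) := fun t x => rfl
  have hactmul : ∀ s t u, act (s * t) u = act s (act t u) := fun s t u => by
    obtain ⟨x, rfl⟩ := hmksurj u
    rw [hact, hact, hact, map_mul, MulAut.mul_apply]
  have hactone : ∀ u, act 1 u = u := fun u => by
    obtain ⟨x, rfl⟩ := hmksurj u
    rw [hact, map_one, MulAut.one_apply]
  -- a class fixed by `b` commutes with `b`
  have hfix : ∀ b (hb : b ∈ T j), ∀ x : Q, act ⟨b, hA0 hb⟩ (mk x) = mk x → ρ (b * x) = ρ (x * b) := by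
    intro b hb x hx
    rw [hact, ← inv_mul_eq_one, ← map_inv, ← map_mul, hmk1] at hx
    push_cast at hx
    rw [hcj] at hx
    change (b * x * b⁻¹)⁻¹ * x ∈ _ at hx
    have hz := (czS ρ (Q : Set H)).inv_mem hx
    have hzQ : (((b * x * b⁻¹)⁻¹ * x)⁻¹ : H) ∈ Q := Q.inv_mem (Q.mul_mem (Q.inv_mem (hconjQ b (hA0 hb) x x.2)) x.2)
    refine comm_of_conj ρ hcop (r := ((b * x * b⁻¹)⁻¹ * x)⁻¹) ?_ (hscomm _ hzQ hz b) (hAp b hb) (hqord _ hzQ)
    congr 1
    group
  have hsc : ∀ x : Q, ∀ y : Q, ∃ c : K, c ≠ 0 ∧ ρ (x * y * (x : H)⁻¹) = c • ρ y := fun x y => by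
    obtain ⟨c, hc⟩ := hscal _ (Q.mul_mem (Q.mul_mem (Q.mul_mem x.2 y.2) (Q.inv_mem x.2)) (Q.inv_mem y.2)) (hcm x x.2 y y.2)
    have h : ρ (x * y * (x : H)⁻¹) = c • ρ y := by
      rw [show (x : H) * y * (x : H)⁻¹ = (x * y * (x : H)⁻¹ * (y : H)⁻¹) * y by group, map_mul, hc, smul_mul_assoc, one_mul]
    refine ⟨c, fun h0 => ?_, h⟩
    rw [h0, zero_smul] at h
    exact rho_ne_zero ρ _ h
  have hpowu : ∀ x : H, ∀ y : H, ∀ c : K, ρ (x * y * x⁻¹) = c • ρ y → ∀ n : ℕ, ρ (x * y ^ n * x⁻¹) = c ^ n • ρ (y ^ n) := by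
    intro x y c h n
    induction n with
    | zero => simp
    | succ n ih =>
      rw [show x * y ^ (n + 1) * x⁻¹ = (x * y ^ n * x⁻¹) * (x * y * x⁻¹) by rw [pow_succ]; group, map_mul, ih, h,
        smul_mul_smul_comm, ← map_mul, ← pow_succ, ← pow_succ]
  have hzetaq : ∀ (x y : Q) (c : K), ρ (x * y * (x : H)⁻¹) = c • ρ y → c ^ q = 1 := fun x y c h => by
    have h1 := hpowu _ _ c h q
    have h2 : ρ ((x : H) * (y : H) ^ q * (x : H)⁻¹) = ρ ((y : H) ^ q) := by
      rw [map_mul _ ((x : H) * _), ← hscomm _ (Q.pow_mem y.2 q) (hpw y y.2) x |>.symm, ← map_mul, mul_assoc, mul_inv_cancel, mul_one]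
    rw [h2] at h1
    refine smul_left_injective K (rho_ne_zero ρ ((y : H) ^ q)) ?_
    show c ^ q • ρ ((y : H) ^ q) = (1 : K) • ρ ((y : H) ^ q)
    rw [one_smul, ← h1]
  -- a class fixed by `a` is central
  let σ : Q ⧸ Zs →* Q ⧸ Zs := act ⟨a, hA0 ha⟩
  have hA1 : ρ a ≠ 1 := fun h => hag₀ (by rw [map_mul, map_mul, h, one_mul, mul_one])
  have hσp : ∀ u, σ^[p] u = u := by
    have hiter : ∀ n u, σ^[n] u = act (⟨a, hA0 ha⟩ ^ n) u := by
      intro n
      induction n with
      | zero => intro u; rw [pow_zero, hactone]; rfl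
      | succ n ih => intro u; rw [Function.iterate_succ_apply', ih, pow_succ', hactmul]
    intro u
    rw [hiter]
    obtain ⟨x, rfl⟩ := hmksurj u
    rw [hact, ← mul_inv_eq_one, ← map_inv, ← map_mul, hmk1, mem_czS]
    intro s _
    push_cast
    rw [hcj]
    have h1 : ρ ((a : H) ^ p) = 1 := by rw [map_pow, hAp a ha]
    have h2 : ρ ((a : H) ^ p * x * ((a : H) ^ p)⁻¹ * (x : H)⁻¹) = 1 := by
      have h3 : ρ ((a : H) ^ p)⁻¹ = 1 := by
        have h4 := (rho_inv ρ ((a : H) ^ p)).1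
        rwa [h1, one_mul] at h4
      rw [map_mul, map_mul, map_mul, h1, h3, one_mul, mul_one, (rho_inv ρ _).1]
    rw [map_mul ρ s, map_mul ρ _ s]
    simp only [SubgroupClass.coe_pow] at *
    rw [h2, one_mul, mul_one]
  have hfree : ∀ u, σ u = u → u = 1 := by
    intro u hu
    obtain ⟨e, rfl⟩ := hmksurj u
    have hea := hfix a ha e hu
    -- `e` commutes with the whole of `T j`
    have heA : ∀ b ∈ T j, ρ (b * e) = ρ (e * b) := by
      intro b hb
      refine hfix b hb e ?_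
      rw [hact, ← inv_mul_eq_one, ← map_inv, ← map_mul, hmk1]
      push_cast
      rw [hcj]
      change (b * e * b⁻¹)⁻¹ * (e : H) ∈ _
      set s : H := (e : H) * b * (e : H)⁻¹ * b⁻¹ with hs
      have hsQ : s ∈ Q := by
        rw [hs, show (e : H) * b * (e : H)⁻¹ * b⁻¹ = (e : H) * (b * (e : H)⁻¹ * b⁻¹) by group]
        exact Q.mul_mem e.2 (hconjQ b (hA0 hb) _ (Q.inv_mem e.2))
      suffices s ∈ czS ρ (Q : Set H) by
        have h1 : (b * e * b⁻¹)⁻¹ * (e : H) = (e : H)⁻¹ * s * e := by rw [hs]; group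
        rw [h1]
        have h2 := (hmemZs _).mp (hZn.conj_mem ⟨s, hsQ⟩ ((hmemZs _).mpr this) (e⁻¹ : Q))
        simpa using h2
      have has : ρ (a * s) = ρ (s * a) := by
        have hb1 := S.hcomm a ha b hb
        have hb2 := S.hcomm a ha b⁻¹ ((T j).inv_mem hb)
        have he2 : ρ (a * (e : H)⁻¹) = ρ ((e : H)⁻¹ * a) := by
          have h := congrArg (fun y => ρ (e : H)⁻¹ * y * ρ (e : H)⁻¹) hea
          simp only [← map_mul] at h
          convert h.symm using 2 <;> group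
        have comm : ∀ {x y : H}, ρ (a * x) = ρ (x * a) → ρ (a * y) = ρ (y * a) → ρ (a * (x * y)) = ρ (x * y * a) := by
          intro x y h1 h2
          rw [← mul_assoc, map_mul, h1, ← map_mul, mul_assoc, map_mul ρ x, h2, ← map_mul, ← mul_assoc]
        exact comm (comm (comm hea hb1) he2) hb2
      have hq0 : (ρ a - 1) * (ρ s - 1) = 0 := by
        have h1 := S.hquad a ha b hb
        have h2 : (ρ a - 1) * (ρ s * ρ b - 1) = 0 := by
          have h3 := congrArg (fun y => ρ (e : H) * y * ρ (e : H)⁻¹) h1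
          simp only [mul_zero, zero_mul] at h3
          have he1 : ρ (e : H) * ρ a = ρ a * ρ (e : H) := by rw [← map_mul, ← map_mul]; exact hea.symm
          rw [show ρ s * ρ b = ρ (e : H) * ρ b * ρ (e : H)⁻¹ by
            rw [← map_mul, ← map_mul, ← map_mul, hs]; congr 1; group]
          calc (ρ a - 1) * (ρ (e : H) * ρ b * ρ (e : H)⁻¹ - 1)
              = (ρ a - 1) * (ρ (e : H) * (ρ b - 1) * ρ (e : H)⁻¹) := by
                rw [conj_sub_one]
            _ = (ρ a * ρ (e : H) - ρ (e : H)) * (ρ b - 1) * ρ (e : H)⁻¹ := by noncomm_ring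
            _ = (ρ (e : H) * ρ a - ρ (e : H)) * (ρ b - 1) * ρ (e : H)⁻¹ := by rw [he1]
            _ = ρ (e : H) * ((ρ a - 1) * (ρ b - 1)) * ρ (e : H)⁻¹ := by noncomm_ring
            _ = 0 := h3
        have h4 : (ρ a - 1) * (ρ s - 1) * ρ b = 0 := by
          calc (ρ a - 1) * (ρ s - 1) * ρ b = (ρ a - 1) * (ρ s * ρ b - 1) - (ρ a - 1) * (ρ b - 1) := by noncomm_ring
            _ = 0 := by rw [h1, h2, sub_zero]
        calc (ρ a - 1) * (ρ s - 1) = (ρ a - 1) * (ρ s - 1) * (ρ b * ρ b⁻¹) := by rw [(rho_inv ρ b).1, mul_one]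
          _ = 0 := by rw [← mul_assoc, h4, zero_mul]
      refine (mem_czS ρ).mpr fun h hh => ?_
      obtain ⟨ζ, hζ0, hζ⟩ := hsc ⟨h, hh⟩ ⟨s, hsQ⟩
      have hζq := hzetaq ⟨h, hh⟩ ⟨s, hsQ⟩ ζ hζ
      change ρ (h * s * h⁻¹) = ζ • ρ s at hζ
      have hseq : ∀ n : ℕ, ∃ F : Q, σ (mk F) * mk ⟨h, hh⟩ = mk F * σ^[n] (mk ⟨h, hh⟩) ∧
          ρ ((F : H) * s * (F : H)⁻¹) = ζ ^ n • ρ s := by
        intro n
        induction n with
        | zero => exact ⟨1, by simp, by simp⟩
        | succ n ih =>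
          obtain ⟨F, hF1, hF2⟩ := ih
          refine ⟨⟨h, hh⟩ * cj ⟨a, hA0 ha⟩ F, ?_, ?_⟩
          · have hk : mk (⟨h, hh⟩ * cj ⟨a, hA0 ha⟩ F) = mk ⟨h, hh⟩ * σ (mk F) := by rw [map_mul]; rfl
            rw [hk, Function.iterate_succ_apply', mul_assoc (mk ⟨h, hh⟩), ← map_mul, ← hF1, map_mul, map_mul,
              hUcomm _ (mk ⟨h, hh⟩), hUcomm (σ (mk ⟨h, hh⟩)) (σ (σ (mk F)))]
          · push_cast
            rw [hcj]
            change ρ (h * (a * F * a⁻¹) * s * (h * (a * F * a⁻¹))⁻¹) = _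
            have h5 : ρ (a * F * a⁻¹ * s * (a * F * a⁻¹)⁻¹) = ζ ^ n • ρ s := by
              rw [show a * (F : H) * a⁻¹ * s * (a * (F : H) * a⁻¹)⁻¹ = a * ((F : H) * (a⁻¹ * s * a) * (F : H)⁻¹) * a⁻¹ by group]
              have h6 : ρ (a⁻¹ * s * a) = ρ s := by
                rw [mul_assoc, map_mul, ← has, ← map_mul, inv_mul_cancel_left]
              have h7 : ρ ((F : H) * (a⁻¹ * s * a) * (F : H)⁻¹) = ζ ^ n • ρ s := by
                rw [map_mul, map_mul, h6, ← map_mul, ← map_mul, hF2]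
              rw [map_mul, map_mul, h7, mul_smul_comm, smul_mul_assoc, ← map_mul, has, map_mul, mul_assoc, (rho_inv ρ a).1, mul_one]
            rw [show h * (a * F * a⁻¹) * s * (h * (a * F * a⁻¹))⁻¹ = h * (a * F * a⁻¹ * s * (a * F * a⁻¹)⁻¹) * h⁻¹ by group,
              map_mul, map_mul, h5, mul_smul_comm, smul_mul_assoc, ← map_mul, ← map_mul, hζ, smul_smul, ← pow_succ]
      obtain ⟨F, hF1, hF2⟩ := hseq p
      rw [hσp, mul_left_inj] at hF1
      obtain ⟨F', hF1', hF2'⟩ : ∃ F' : Q, σ (mk F') = mk F' ∧ ρ ((F' : H) * s * (F' : H)⁻¹) = ζ ^ p • ρ s := by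
        exact ⟨F, hF1, hF2⟩
      have haF := hfix a ha F' hF1'
      have h8 : (ρ a - 1) * (ζ ^ p • ρ s - 1) = 0 := by
        rw [← hF2', map_mul, map_mul]
        have he1 : ρ (F' : H) * ρ a = ρ a * ρ (F' : H) := by rw [← map_mul, ← map_mul]; exact haF.symm
        calc (ρ a - 1) * (ρ (F' : H) * ρ s * ρ (F' : H)⁻¹ - 1)
            = (ρ a - 1) * (ρ (F' : H) * (ρ s - 1) * ρ (F' : H)⁻¹) := by
              rw [conj_sub_one]
          _ = (ρ a * ρ (F' : H) - ρ (F' : H)) * (ρ s - 1) * ρ (F' : H)⁻¹ := by noncomm_ring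
          _ = (ρ (F' : H) * ρ a - ρ (F' : H)) * (ρ s - 1) * ρ (F' : H)⁻¹ := by rw [he1]
          _ = ρ (F' : H) * ((ρ a - 1) * (ρ s - 1)) * ρ (F' : H)⁻¹ := by noncomm_ring
          _ = 0 := by rw [hq0, mul_zero, zero_mul]
      have h9 : (ζ ^ p - 1) • ((ρ a - 1) * ρ s) = 0 := by
        have h10 := h8
        rw [← hq0, mul_sub, mul_sub, sub_left_inj, mul_smul_comm] at h10
        rw [sub_smul, one_smul, h10, sub_self]
      have hζp : ζ ^ p = 1 := by
        rcases smul_eq_zero.mp h9 with h' | h'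
        · exact sub_eq_zero.mp h'
        · refine absurd (sub_eq_zero.mp ?_) hA1
          calc ρ a - 1 = (ρ a - 1) * (ρ s * ρ s⁻¹) := by rw [(rho_inv ρ s).1, mul_one]
            _ = 0 := by rw [← mul_assoc, h', zero_mul]
      have hζ1 : ζ = 1 := by
        have h11 := pow_gcd_eq_one.mpr ⟨hζp, hζq⟩
        rwa [Nat.coprime_iff_gcd_eq_one.mp hcop, pow_one] at h11
      rw [hζ1, one_smul] at hζ
      have h12 := congrArg (fun y => y * ρ h) hζ
      simp only [← map_mul, inv_mul_cancel_right] at h12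
      exact h12
    -- hence `e` commutes with `Q`
    refine (hmk1 e).mpr ?_
    have hle : Q ≤ czS ρ {(e : H)} := by
      refine hgen.trans ?_
      rw [Subgroup.closure_le]
      rintro _ ⟨b, hb, g, hg, rfl⟩
      refine (mem_czS ρ).mpr fun s hs => ?_
      rw [Set.mem_singleton_iff] at hs
      subst hs
      obtain ⟨ζ, hζ0, hζ⟩ := hsc e ⟨g, hg⟩
      change ρ ((e : H) * g * (e : H)⁻¹) = ζ • ρ g at hζ
      have h1 : ρ ((e : H) * b * (e : H)⁻¹) = ρ b := by
        rw [map_mul, ← heA b hb, ← map_mul, mul_assoc, mul_inv_cancel, mul_one]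
      have h1' : ρ ((e : H) * b⁻¹ * (e : H)⁻¹) = ρ b⁻¹ := by
        rw [map_mul, ← heA b⁻¹ ((T j).inv_mem hb), ← map_mul, mul_assoc, mul_inv_cancel, mul_one]
      have h2 : ρ ((e : H) * g⁻¹ * (e : H)⁻¹) = ζ⁻¹ • ρ g⁻¹ := by
        have h3 : ρ ((e : H) * g⁻¹ * (e : H)⁻¹) * ρ ((e : H) * g * (e : H)⁻¹) = 1 := by
          rw [← map_mul, ← map_one ρ]; congr 1; group
        rw [hζ, mul_smul_comm] at h3
        calc ρ ((e : H) * g⁻¹ * (e : H)⁻¹) = ρ ((e : H) * g⁻¹ * (e : H)⁻¹) * (ρ g * ρ g⁻¹) := by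
              rw [(rho_inv ρ g).1, mul_one]
          _ = ζ⁻¹ • ((ζ • (ρ ((e : H) * g⁻¹ * (e : H)⁻¹) * ρ g)) * ρ g⁻¹) := by
              rw [smul_mul_assoc, smul_smul, inv_mul_cancel₀ hζ0, one_smul, ← mul_assoc]
          _ = ζ⁻¹ • ρ g⁻¹ := by rw [h3, one_mul]
      have h4 : ρ ((e : H) * (g⁻¹ * (b * g * b⁻¹)) * (e : H)⁻¹) = ρ (g⁻¹ * (b * g * b⁻¹)) := by
        have h6 : ρ ((e : H) * (g⁻¹ * (b * g * b⁻¹)) * (e : H)⁻¹) = ρ ((e : H) * g⁻¹ * (e : H)⁻¹) *
            (ρ ((e : H) * b * (e : H)⁻¹) * ρ ((e : H) * g * (e : H)⁻¹) * ρ ((e : H) * b⁻¹ * (e : H)⁻¹)) := by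
          rw [← map_mul, ← map_mul, ← map_mul]; congr 1; group
        rw [h6, h1, h1', h2, hζ, mul_smul_comm, smul_mul_assoc, smul_mul_assoc, mul_smul_comm,
          smul_smul, inv_mul_cancel₀ hζ0, one_smul, ← map_mul, ← map_mul, ← map_mul]
      have h5 := congrArg (fun y => y * ρ (e : H)) h4
      simp only [← map_mul, inv_mul_cancel_right] at h5
      exact h5
    refine (mem_czS ρ).mpr fun s hs => ?_
    exact ((mem_czS ρ).mp (hle hs) (e : H) rfl).symm
  have hσinj : Function.Injective σ := by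
    rw [injective_iff_map_eq_one]
    intro u hu
    have h := hσp u
    obtain ⟨m, hm⟩ : ∃ m, p = m + 1 := ⟨p - 1, (Nat.sub_add_cancel hp.out.pos).symm⟩
    rw [hm, Function.iterate_succ_apply, hu, iterate_map_one] at h
    exact h.symm
  haveI : Finite (Q ⧸ Zs) := inferInstance
  -- linear independence of representatives of distinct classes
  have hLI : ∀ {ι : Type} [Fintype ι] (c : ι → K) (u : ι → Q), ∑ i, c i • ρ (u i : H) = 0 →
      ∀ k, (∀ i, i ≠ k → mk (u i) ≠ mk (u k)) → c k = 0 := by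
    intro ι _ c u hsum k hk
    haveI : Fintype Q := Fintype.ofFinite Q
    let Φ : Module.End K M → Module.End K M := fun Y => ∑ h : Q, ρ (h : H) * Y * ρ (h : H)⁻¹
    have hΦ : Φ (ρ (u k : H)⁻¹ * ∑ i, c i • ρ (u i : H)) = ∑ i, c i • Φ (ρ ((u k : H)⁻¹ * u i)) := by
      simp only [Φ, Finset.mul_sum, mul_smul_comm, smul_mul_assoc, Finset.sum_mul, map_mul, Finset.smul_sum]
      rw [Finset.sum_comm]
    have hz : ∀ i, i ≠ k → Φ (ρ ((u k : H)⁻¹ * u i)) = 0 := by
      intro i hi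
      have hnz : ¬ (((u k)⁻¹ * u i : Q) : H) ∈ czS ρ (Q : Set H) := fun h => hk i hi (by
        have := (hmk1 _).mpr h
        rwa [map_mul, map_inv, inv_mul_eq_one, eq_comm] at this)
      rw [mem_czS] at hnz
      push Not at hnz
      obtain ⟨h0, hh0, hne⟩ := hnz
      push_cast at hne
      set d : H := (u k : H)⁻¹ * u i with hd
      have hdQ : d ∈ Q := Q.mul_mem (Q.inv_mem (u k).2) (u i).2
      obtain ⟨ζ, -, hζ⟩ := hsc ⟨h0, hh0⟩ ⟨d, hdQ⟩
      change ρ (h0 * d * h0⁻¹) = ζ • ρ d at hζ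
      have hζ1 : ζ ≠ 1 := fun h => hne (by
        rw [h, one_smul] at hζ
        have h5 := congrArg (fun y => y * ρ h0) hζ
        simp only [← map_mul, inv_mul_cancel_right] at h5
        exact h5)
      have h6 : Φ (ρ d) = ζ • Φ (ρ d) := by
        simp only [Φ, Finset.smul_sum]
        rw [← Equiv.sum_comp (Equiv.mulRight (⟨h0, hh0⟩ : Q))]
        refine Finset.sum_congr rfl fun h _ => ?_
        simp only [Equiv.coe_mulRight, Subgroup.coe_mul]
        rw [← map_mul, ← map_mul, show (h : H) * h0 * d * ((h : H) * h0)⁻¹ = (h : H) * (h0 * d * h0⁻¹) * (h : H)⁻¹ by group,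
          map_mul, map_mul, hζ, mul_smul_comm, smul_mul_assoc]
      have h7 : (1 - ζ) • Φ (ρ d) = 0 := by rw [sub_smul, one_smul, ← h6, sub_self]
      exact (smul_eq_zero.mp h7).resolve_left (sub_ne_zero.mpr hζ1.symm)
    rw [hsum, mul_zero, Finset.sum_eq_single k (fun i _ hi => by rw [hz i hi, smul_zero]) (by simp),
      inv_mul_cancel, map_one] at hΦ
    simp only [Φ, mul_zero, zero_mul, Finset.sum_const_zero, mul_one, (rho_inv ρ _).1, Finset.sum_const,
      Finset.card_univ] at hΦ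
    rw [← Nat.cast_smul_eq_nsmul K, smul_smul] at hΦ
    have hne : (Fintype.card Q : K) ≠ 0 := by
      obtain ⟨n, hn⟩ := IsPGroup.iff_card.mp S.hQ
      rw [Nat.card_eq_fintype_card] at hn
      rw [hn, Nat.cast_pow]
      exact pow_ne_zero _ hqK
    exact (mul_eq_zero.mp ((smul_eq_zero.mp hΦ.symm).resolve_right one_ne_zero)).resolve_right hne
  -- the basic identity
  have hident : ∀ u : Q ⧸ Zs, u ≠ 1 → ∃ (r r' : Q) (c : K), mk r = u ∧ mk r' = σ u ∧ (r' : H) = a * r * a⁻¹ ∧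
      ρ ((r' : H) ^ q) = c • 1 ∧
      (2 * (c - 1)) • ρ a = ∑ i : Fin q, (ρ ((r' : H) ^ ((i : ℕ) + 1)) - ρ ((r' : H) ^ (i : ℕ) * (r : H)⁻¹)) := by
    intro u hu
    let ψ : Q ⧸ Zs → Q ⧸ Zs := fun v => σ^[p - 1] v * v⁻¹
    have hψ : Function.Bijective ψ := by
      refine Finite.injective_iff_bijective.mp fun v w h => ?_
      have h1 := congrArg σ h
      simp only [ψ, map_mul, map_inv, ← Function.iterate_succ_apply' σ, Nat.succ_eq_add_one,
        Nat.sub_add_cancel hp.out.pos, hσp] at h1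
      refine (mul_inv_eq_one.mp (hfree (v * w⁻¹) ?_))
      rw [map_mul, map_inv]
      conv_rhs => rw [mul_inv_eq_iff_eq_mul.mp h1]
      rw [hUcomm (w * (σ w)⁻¹) (σ v), mul_assoc, mul_assoc, hUcomm (σ w)⁻¹ w⁻¹, ← mul_assoc w, mul_inv_cancel,
        one_mul]
    obtain ⟨v, hv⟩ := hψ.2 u
    obtain ⟨e, rfl⟩ := hmksurj v
    have hai : a⁻¹ ∈ T 0 := (T 0).inv_mem (hA0 ha)
    let r : Q := cj ⟨a⁻¹, hai⟩ e * e⁻¹
    let r' : Q := cj ⟨a, hA0 ha⟩ r
    have hrv : (r : H) = a⁻¹ * e * a * (e : H)⁻¹ := by simp [r, hcj]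
    have hr'v : (r' : H) = a * r * a⁻¹ := hcj _ r
    have hrr : mk r = u := by
      rw [← hv]
      show mk (cj ⟨a⁻¹, hai⟩ e * e⁻¹) = σ^[p - 1] (mk e) * (mk e)⁻¹
      rw [map_mul, map_inv, ← hact]
      congr 1
      refine hσinj ?_
      rw [← Function.iterate_succ_apply' σ, Nat.succ_eq_add_one, Nat.sub_add_cancel hp.out.pos, hσp]
      show act _ (act _ _) = _
      rw [← hactmul]
      rw [show (⟨a, hA0 ha⟩ : T 0) * ⟨a⁻¹, hai⟩ = 1 from Subtype.ext (mul_inv_cancel a), hactone]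
    obtain ⟨c, hc⟩ := hscal _ (Q.pow_mem r'.2 q) (hpw r' r'.2)
    refine ⟨r, r', c, hrr, ?_, hr'v, hc, ?_⟩
    · rw [← hrr]; rfl
    have hX : (ρ a - 1) * (ρ a - 1) = 0 := S.hquad a ha a ha
    have hY : (ρ a * ρ (r : H) - 1) * (ρ a * ρ (r : H) - 1) = 0 := by
      rw [← map_mul, show a * (r : H) = (e : H) * a * (e : H)⁻¹ by rw [hrv]; group, map_mul, map_mul]
      have h3 := congrArg (fun y => ρ (e : H) * y * ρ (e : H)⁻¹) hX
      simp only [mul_zero, zero_mul] at h3
      rw [show ρ (e : H) * ρ a * ρ (e : H)⁻¹ - 1 = ρ (e : H) * (ρ a - 1) * ρ (e : H)⁻¹ by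
        rw [mul_sub, sub_mul, mul_one, (rho_inv ρ _).1]]
      calc _ = ρ (e : H) * (ρ a - 1) * (ρ (e : H)⁻¹ * ρ (e : H)) * (ρ a - 1) * ρ (e : H)⁻¹ := by noncomm_ring
        _ = ρ (e : H) * ((ρ a - 1) * (ρ a - 1)) * ρ (e : H)⁻¹ := by rw [(rho_inv ρ _).2]; noncomm_ring
        _ = 0 := h3
    have hAR : ρ a * ρ (r : H) = ρ (r' : H) * ρ a := by
      rw [← map_mul, ← map_mul, hr'v, inv_mul_cancel_right]
    have hXX : ρ a * ρ a = 2 • ρ a - 1 := by
      rw [← sub_eq_zero, ← hX]; noncomm_ring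
    have h1 : ρ (r' : H) * (2 • ρ a - 1) * ρ (r : H) - 2 • (ρ a * ρ (r : H)) + 1 = 0 := by
      rw [← hXX, ← mul_assoc, ← hAR, ← hY]; noncomm_ring
    have h2 : ρ (r' : H) * (2 • ρ a - 1) - 2 • ρ a + ρ (r : H)⁻¹ = 0 := by
      have h3 := congrArg (fun y => y * ρ (r : H)⁻¹) h1
      simp only [zero_mul, add_mul, sub_mul, one_mul, mul_assoc, smul_mul_assoc, (rho_inv ρ _).1, mul_one] at h3
      rw [← h3]
    have h4 : (ρ (r' : H) - 1) * (2 • ρ a) = ρ (r' : H) - ρ (r : H)⁻¹ := by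
      rw [← sub_eq_zero, ← h2]; noncomm_ring
    have h5 := congrArg (fun y => (∑ i ∈ Finset.range q, ρ (r' : H) ^ i) * y) h4
    simp only [← mul_assoc, geom_sum_mul, ← map_pow ρ (r' : H) q, hc] at h5
    rw [Finset.sum_mul] at h5
    rw [Fin.sum_univ_eq_sum_range fun i => ρ ((r' : H) ^ (i + 1)) - ρ ((r' : H) ^ i * (r : H)⁻¹)]
    refine Eq.trans ?_ (h5.trans (Finset.sum_congr rfl fun i _ => ?_))
    · rw [show c • (1 : Module.End K M) - 1 = (c - 1) • 1 by rw [sub_smul, one_smul], smul_mul_assoc, one_mul,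
        ← Nat.cast_smul_eq_nsmul K 2, smul_smul, Nat.cast_ofNat, mul_comm]
    · rw [mul_sub, map_mul, pow_succ, map_mul, map_pow]
  -- the class `σ u` is fixed only if `u = 1`
  have hfix1 : ∀ u, σ (σ u) = σ u → u = 1 := fun u h => hfree u (hσinj h)
  have hcomm_pow : ∀ {x y : Q} (n : ℕ), mk x = mk y ^ n → ρ ((x : H) * y) = ρ ((y : H) * x) := by
    intro x y n h
    rw [← map_pow, eq_comm, ← inv_mul_eq_one, ← map_inv, ← map_mul, hmk1] at h
    push_cast at h
    have hz := hscomm _ (Q.mul_mem (Q.inv_mem (Q.pow_mem y.2 n)) x.2) h (y : H)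
    conv_lhs => rw [show (x : H) * y = (y : H) ^ n * (((y : H) ^ n)⁻¹ * x * y) by group, map_mul, ← hz, ← map_mul]
    congr 1
    rw [← mul_assoc, ← pow_succ, pow_succ', mul_assoc, mul_inv_cancel_left]
  have hUpow : ∀ {u v : Q ⧸ Zs}, u ∈ Subgroup.zpowers v → ∃ n : ℕ, u = v ^ n := fun {u v} h => by
    obtain ⟨n, hn⟩ := (isOfFinOrder_of_finite v).mem_powers_iff_mem_zpowers.mpr h
    exact ⟨n, hn.symm⟩
  have hord : ∀ {v : Q ⧸ Zs}, v ≠ 1 → orderOf v = q := fun {v} hv => orderOf_eq_prime (hUq v) hv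
  -- membership in the line decides the scalar
  have hline : ∀ (u : Q ⧸ Zs), u ≠ 1 → ∀ (r r' : Q) (c : K), mk r = u → mk r' = σ u → (r' : H) = a * r * a⁻¹ →
      (2 * (c - 1)) • ρ a = ∑ i : Fin q, (ρ ((r' : H) ^ ((i : ℕ) + 1)) - ρ ((r' : H) ^ (i : ℕ) * (r : H)⁻¹)) →
      (u ∈ Subgroup.zpowers (σ u) → c = 1) ∧ (u ∉ Subgroup.zpowers (σ u) → c ≠ 1) := by
    intro u hu r r' c hr hr' hr'a heq
    refine ⟨fun hmem => ?_, fun hnot hc1 => ?_⟩
    · by_contra hc1
      obtain ⟨n, hn⟩ := hUpow hmem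
      have hrr := hcomm_pow n (show mk r = mk r' ^ n by rw [hr, hr']; exact hn)
      have hri : Commute (ρ (r' : H)) (ρ (r : H)⁻¹) := by
        show ρ (r' : H) * ρ (r : H)⁻¹ = ρ (r : H)⁻¹ * ρ (r' : H)
        rw [← map_mul, ← map_mul]
        have h := congrArg (fun y => ρ (r : H)⁻¹ * y * ρ (r : H)⁻¹) hrr
        simp only [← map_mul] at h
        convert h using 2 <;> group
      have hcomm2 : Commute (ρ (r' : H)) ((2 * (c - 1)) • ρ a) := by
        rw [heq]
        refine Commute.sum_right _ _ _ fun i _ => ?_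
        rw [map_mul, map_pow, map_pow]
        exact ((Commute.refl _).pow_right _).sub_right (((Commute.refl _).pow_right _).mul_right hri)
      have h2ne : (2 : K) * (c - 1) ≠ 0 := mul_ne_zero (Ring.two_ne_zero (by rw [ringChar.eq K p]; exact hp2))
        (sub_ne_zero.mpr hc1)
      have h : ρ (r' : H) * ρ a = ρ a * ρ (r' : H) := by
        have h1 := hcomm2.eq
        rw [mul_smul_comm, smul_mul_assoc] at h1
        exact smul_right_injective _ h2ne h1
      have h2 : act ⟨a, hA0 ha⟩ (mk r') = mk r' := by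
        rw [hact, ← mul_inv_eq_one, ← map_inv, ← map_mul, hmk1, mem_czS]
        intro s _
        push_cast
        rw [hcj]
        have h3 : ρ (a * r' * a⁻¹ * (r' : H)⁻¹) = 1 := by
          rw [map_mul, map_mul, map_mul, ← h, mul_assoc (ρ (r' : H)), (rho_inv ρ a).1, mul_one, (rho_inv ρ _).1]
        rw [map_mul ρ s, map_mul ρ _ s, h3, one_mul, mul_one]
      rw [hr'] at h2
      exact hu (hfix1 u h2)
    · rw [hc1, sub_self, mul_zero, zero_smul] at heq
      have hq1 : q - 1 + 1 = q := Nat.sub_add_cancel hq.out.pos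
      have := hLI (ι := Fin q ⊕ Fin q) (Sum.elim (fun _ => (1 : K)) (fun _ => -1))
        (Sum.elim (fun i => r' ^ ((i : ℕ) + 1)) (fun i => r' ^ (i : ℕ) * r⁻¹))
        (by
          rw [Fintype.sum_sum_type]
          simp only [Sum.elim_inl, Sum.elim_inr, one_smul, neg_smul, Finset.sum_neg_distrib, Subgroup.coe_mul,
            SubgroupClass.coe_pow, InvMemClass.coe_inv]
          rw [← sub_eq_add_neg, ← Finset.sum_sub_distrib, ← heq])
        (Sum.inl ⟨q - 1, by omega⟩) (fun i hi => by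
          have hk : mk (r' ^ (q - 1 + 1)) = 1 := by rw [hq1, map_pow, hUq]
          rcases i with i | i
          · simp only [Sum.elim_inl]
            rw [hk, map_pow, hr']
            intro h
            have hd := orderOf_dvd_of_pow_eq_one h
            rw [hord (fun h' => hu (hfix1 u (by rw [h', map_one])))] at hd
            have := Nat.le_of_dvd (Nat.succ_pos _) hd
            exact hi (congrArg Sum.inl (Fin.ext (by have := i.2; show (i : ℕ) = q - 1; omega)))
          · simp only [Sum.elim_inl, Sum.elim_inr]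
            rw [hk, map_mul, map_pow, map_inv, hr, hr']
            intro h
            refine hnot ?_
            have h' := Subgroup.npow_mem_zpowers (σ u) (i : ℕ)
            rwa [mul_inv_eq_one.mp h] at h')
      simp at this
  have hconjA : ∀ x : H, ρ a * ρ x * ρ a⁻¹ = ρ (a * x * a⁻¹) := fun x => by rw [← map_mul, ← map_mul]
  by_cases hq2 : q = 2
  · -- at most four classes
    subst hq2
    have hnotline : ∀ u : Q ⧸ Zs, u ≠ 1 → u ∉ Subgroup.zpowers (σ u) := fun u hu h => by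
      obtain ⟨n, hn⟩ := hUpow h
      have h1 : σ u ^ n = σ u ^ (n % 2) := by
        conv_lhs => rw [← Nat.div_add_mod n 2, pow_add, pow_mul, hUq, one_pow, one_mul]
      rw [h1] at hn
      rcases Nat.mod_two_eq_zero_or_one n with h0 | h0 <;> rw [h0] at hn
      · exact hu (by simpa using hn)
      · exact hu (hfree u (by simpa using hn.symm))
    obtain ⟨u₀, hu₀⟩ : ∃ u : Q ⧸ Zs, u ≠ 1 := by
      by_contra hall
      push Not at hall
      exact hag₀ (hfix a ha ⟨g₀, hg₀⟩ (by rw [hall (act _ _), hall (mk _)]))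
    obtain ⟨r, r', c, hr, hr', hr'a, -, heq⟩ := hident u₀ hu₀
    have hc := (hline u₀ hu₀ r r' c hr hr' hr'a heq).2 (hnotline u₀ hu₀)
    let W : Fin 4 → Q ⧸ Zs := ![mk r', 1, u₀⁻¹, mk r' * u₀⁻¹]
    have hcover : ∀ v : Q ⧸ Zs, ∃ i, W i = v := by
      intro v
      by_cases hv : v = 1
      · exact ⟨1, hv.symm ▸ rfl⟩
      obtain ⟨g, g', d, hg, hg', hg'a, -, heq'⟩ := hident v hv
      have hd := (hline v hv g g' d hg hg' hg'a heq').2 (hnotline v hv)
      by_contra hno
      push Not at hno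
      simp only [Fin.sum_univ_two, Fin.val_zero, Fin.val_one, zero_add, pow_zero, one_mul, pow_one] at heq heq'
      have hv' : v⁻¹ = v := inv_eq_of_mul_eq_one_right (by rw [← pow_two, hUq])
      have := hLI (ι := Fin 8) ![d - 1, -(d - 1), d - 1, -(d - 1), -(c - 1), c - 1, -(c - 1), c - 1]
        ![r', r⁻¹, r' ^ (1 + 1), r' * r⁻¹, g', g⁻¹, g' ^ (1 + 1), g' * g⁻¹]
        (by
          simp only [Fin.sum_univ_eight, Matrix.cons_val, Subgroup.coe_mul, SubgroupClass.coe_pow,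
            InvMemClass.coe_inv]
          have h1 : (d - 1) • ((2 * (c - 1)) • ρ a) - (c - 1) • ((2 * (d - 1)) • ρ a) = 0 := by
            rw [smul_smul, smul_smul, ← sub_smul, show (d - 1) * (2 * (c - 1)) - (c - 1) * (2 * (d - 1)) = 0 by ring,
              zero_smul]
          rw [heq, heq'] at h1
          rw [← h1]
          module)
        5 (fun i hi => by
          have e5 : mk g⁻¹ = v := by rw [map_inv, hg, hv']
          fin_cases i <;> simp only [Matrix.cons_val, Fin.reduceFinMk, Fin.zero_eta, Fin.isValue, e5] <;> (try simp only [map_mul, map_pow, map_inv, hg, hg', hr, hUq])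
          · exact fun h => hno 0 h
          · exact fun h => hno 2 h
          · exact fun h => hv h.symm
          · exact fun h => hno 3 h
          · exact fun h => hv (hfree v h)
          · exact absurd rfl hi
          · exact fun h => hv h.symm
          · intro h
            rw [hv'] at h
            exact hv (hσinj (by rw [map_one]; exact mul_eq_right.mp h)))
      exact hc (sub_eq_zero.mp (by simpa using this))
    have hcard : Nat.card (Q ⧸ Zs) ≤ 4 := by
      simpa using Nat.card_le_card_of_surjective W hcover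
    -- so `T 1` acts trivially
    let φ : T 0 →* Equiv.Perm (Q ⧸ Zs) :=
      { toFun := fun t =>
          { toFun := act t
            invFun := act t⁻¹
            left_inv := fun v => by rw [← hactmul, inv_mul_cancel, hactone]
            right_inv := fun v => by rw [← hactmul, mul_inv_cancel, hactone] }
        map_one' := Equiv.ext hactone
        map_mul' := fun s t => Equiv.ext (hactmul s t) }
    have hdvd : Nat.card φ.range ∣ 24 := by
      haveI : Fintype (Q ⧸ Zs) := Fintype.ofFinite _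
      refine (Subgroup.card_subgroup_dvd_card φ.range).trans ?_
      rw [Nat.card_eq_fintype_card, Fintype.card_perm, ← Nat.card_eq_fintype_card]
      exact Nat.factorial_dvd_factorial hcard
    have hker : ⁅T 0, T 0⁆ ≤ φ.ker.map (T 0).subtype := by
      rw [Subgroup.commutator_le]
      intro x hx y hy
      refine ⟨⁅(⟨x, hx⟩ : T 0), (⟨y, hy⟩ : T 0)⁆, ?_, rfl⟩
      rw [SetLike.mem_coe, MonoidHom.mem_ker, map_commutatorElement, commutatorElement_eq_one_iff_mul_comm]
      have := commutative_of_card_dvd (S.hT0.of_surjective φ.rangeRestrict φ.rangeRestrict_surjective) hdvd hp2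
        ⟨φ ⟨x, hx⟩, ⟨_, rfl⟩⟩ ⟨φ ⟨y, hy⟩, ⟨_, rfl⟩⟩
      exact congrArg Subtype.val this
    have hT1 : T j ≤ T 1 := by
      rw [show j = (j - 1) + 1 by omega]; exact chain_le S.hT 1 _
    obtain ⟨t, ht, hta⟩ := hker (S.hT 0 (hT1 ha))
    refine hu₀ (hfree u₀ ?_)
    have h := Equiv.congr_fun (MonoidHom.mem_ker.mp ht) u₀
    have hta' : t = ⟨a, hA0 ha⟩ := Subtype.ext hta
    subst hta'
    exact h
  · -- every line is invariant
    have hq3 : 3 ≤ q := by have := hq.out.two_le; omega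
    have hinvline : ∀ u : Q ⧸ Zs, u ≠ 1 → u ∈ Subgroup.zpowers (σ u) := by
      intro u hu
      by_contra hnot
      obtain ⟨r, r', c, hr, hr', hr'a, hc, heq⟩ := hident u hu
      set w := σ u with hw
      have hw1 : w ≠ 1 := fun h => hu (hfix1 u (by rw [← hw, h, map_one]))
      set w' := σ w with hw'
      have hnot' : w' ∉ Subgroup.zpowers w := fun h => by
        obtain ⟨n, hn⟩ := hUpow h
        have h1 : σ (u ^ n) = σ w := by rw [map_pow, ← hw, ← hn]
        have h2 := hσinj h1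
        refine hnot ?_
        have hn0 : ¬ q ∣ n := fun hdvd => hw1 (by
          obtain ⟨k, rfl⟩ := hdvd
          rw [pow_mul, hUq, one_pow] at h2
          exact h2.symm)
        obtain ⟨k, hk⟩ : ∃ k, (u ^ n) ^ k = u :=
          exists_pow_eq_self_of_coprime ((hord hu).symm ▸ ((hq.out.coprime_iff_not_dvd).mpr hn0).symm)
        rw [← hk, h2]
        exact Subgroup.npow_mem_zpowers _ _
      let r2 : Q := cj ⟨a, hA0 ha⟩ r'
      have hr2 : mk r2 = w' := by rw [hw', ← hr']; rfl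
      have heq2 : (2 * (c - 1)) • ρ a = ∑ i : Fin q, (ρ ((r2 : H) ^ ((i : ℕ) + 1)) - ρ ((r2 : H) ^ (i : ℕ) * (r' : H)⁻¹)) := by
        have h := congrArg (fun y => ρ a * y * ρ a⁻¹) heq
        simp only [mul_smul_comm, smul_mul_assoc, mul_assoc, (rho_inv ρ a).1, mul_one, Finset.mul_sum, Finset.sum_mul] at h
        refine h.trans (Finset.sum_congr rfl fun i _ => ?_)
        rw [← mul_assoc, mul_sub, sub_mul, hconjA, hconjA, hcj, hr'a]
        simp only [conj_pow]
        congr 1 <;> congr 1 <;> group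
      have hsum := (sub_eq_zero.mpr (heq2.symm.trans heq))
      have hnw : ∀ n : ℕ, n ≠ 0 → n < q → ¬ w' ^ n ∈ Subgroup.zpowers w := fun n h0 hn h => by
        obtain ⟨k, hk⟩ : ∃ k, (w' ^ n) ^ k = w' := exists_pow_eq_self_of_coprime (by
          rw [hord (fun h' => hw1 (hσinj (by rw [map_one, ← hw', h'])))]
          exact (Nat.coprime_of_lt_prime h0 hn hq.out).symm)
        exact hnot' (hk ▸ Subgroup.pow_mem _ h k)
      have hkey : ∀ m : ℕ, 1 ≤ m → m < q → w' ^ m * u ∈ Subgroup.zpowers w := by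
        intro m hm1 hmq
        by_contra hno
        have hLI' := hLI (ι := (Fin q ⊕ Fin q) ⊕ (Fin q ⊕ Fin q))
          (Sum.elim (Sum.elim (fun _ => (1 : K)) (fun _ => -1)) (Sum.elim (fun _ => -1) (fun _ => 1)))
          (Sum.elim (Sum.elim (fun i => r2 ^ ((i : ℕ) + 1)) (fun i => r2 ^ (i : ℕ) * r'⁻¹))
            (Sum.elim (fun i => r' ^ ((i : ℕ) + 1)) (fun i => r' ^ (i : ℕ) * r⁻¹)))
          (by
            rw [Fintype.sum_sum_type, Fintype.sum_sum_type, Fintype.sum_sum_type]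
            simp only [Sum.elim_inl, Sum.elim_inr, one_smul, neg_smul, Finset.sum_neg_distrib, Subgroup.coe_mul,
              SubgroupClass.coe_pow, InvMemClass.coe_inv]
            rw [Finset.sum_sub_distrib, Finset.sum_sub_distrib] at hsum
            rw [← hsum]; abel)
          (Sum.inl (Sum.inl ⟨m - 1, by omega⟩)) (fun i hi => by
            have hk : mk (r2 ^ (m - 1 + 1)) = w' ^ m := by rw [map_pow, hr2, Nat.sub_add_cancel hm1]
            rcases i with (i | i) | (i | i) <;> simp only [Sum.elim_inl, Sum.elim_inr] <;> rw [hk] <;>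
              simp only [map_mul, map_pow, map_inv, hr2, hr', hr] <;> intro h
            · have hd : orderOf w' = q := hord (fun h' => hw1 (hσinj (by rw [map_one, ← hw', h'])))
              have h' := pow_eq_pow_iff_modEq.mp h
              rw [hd, Nat.ModEq, Nat.mod_eq_of_lt hmq] at h'
              have hi2 := i.2
              rcases Nat.lt_or_ge ((i : ℕ) + 1) q with hlt | hge
              · rw [Nat.mod_eq_of_lt hlt] at h'
                exact hi (congrArg (fun x => Sum.inl (Sum.inl x)) (Fin.ext (by show (i : ℕ) = m - 1; omega)))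
              · rw [show (i : ℕ) + 1 = q by omega, Nat.mod_self] at h'
                omega
            · have h' : (w' ^ m)⁻¹ * w' ^ (i : ℕ) = w := by
                rw [mul_inv_eq_iff_eq_mul] at h
                rw [h]; group
              have hwz : w ∈ Subgroup.zpowers w' := h' ▸ Subgroup.mul_mem _ (Subgroup.inv_mem _ (Subgroup.npow_mem_zpowers _ _)) (Subgroup.npow_mem_zpowers _ _)
              obtain ⟨n, hn⟩ := hUpow hwz
              have hn0 : ¬ q ∣ n := fun hdvd => hw1 (by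
                obtain ⟨k, rfl⟩ := hdvd
                rw [hn, pow_mul, hUq, one_pow])
              obtain ⟨k, hk⟩ : ∃ k, (w' ^ n) ^ k = w' := exists_pow_eq_self_of_coprime
                ((hord (v := w') (fun h' => hw1 (hσinj (by rw [map_one, ← hw', h'])))).symm ▸ ((hq.out.coprime_iff_not_dvd).mpr hn0).symm)
              exact hnot' (hk ▸ hn ▸ Subgroup.npow_mem_zpowers _ _)
            · exact hnw m (by omega) hmq (h ▸ Subgroup.npow_mem_zpowers _ _)
            · refine hno ?_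
              rw [← h, inv_mul_cancel_right]
              exact Subgroup.npow_mem_zpowers _ _)
        simp at hLI'
      have h1 := hkey 1 le_rfl (by omega)
      have h2 := hkey 2 (by omega) (by omega)
      refine hnot' ?_
      have h3 := Subgroup.mul_mem _ h2 (Subgroup.inv_mem _ h1)
      rwa [pow_one, pow_two, mul_inv_rev, mul_assoc, ← mul_assoc u, mul_inv_cancel, one_mul, mul_inv_cancel_right] at h3
    have hsig : ∀ u : Q ⧸ Zs, ∃ n : ℕ, σ u = u ^ n := fun u => by
      by_cases hu : u = 1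
      · exact ⟨0, by rw [hu, map_one, pow_zero]⟩
      obtain ⟨n, hn⟩ := hUpow (hinvline u hu)
      have hw1 : σ u ≠ 1 := fun h => hu (hfix1 u (by rw [h, map_one]))
      have hn0 : ¬ q ∣ n := fun hdvd => hu (by
        obtain ⟨k, rfl⟩ := hdvd
        rw [hn, pow_mul, hUq, one_pow])
      obtain ⟨k, hk⟩ : ∃ k, (σ u ^ n) ^ k = σ u := exists_pow_eq_self_of_coprime
        ((hord hw1).symm ▸ ((hq.out.coprime_iff_not_dvd).mpr hn0).symm)
      rw [← hn] at hk
      exact ⟨k, hk.symm⟩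
    obtain ⟨e₀, he₀⟩ : ∃ u : Q ⧸ Zs, u ≠ 1 := by
      by_contra hall
      push Not at hall
      exact hag₀ (hfix a ha ⟨g₀, hg₀⟩ (by rw [hall (act _ _), hall (mk _)]))
    obtain ⟨x, rfl⟩ := hmksurj e₀
    obtain ⟨y, hy, hxy⟩ : ∃ y ∈ Q, ρ (y * (x : H)) ≠ ρ ((x : H) * y) := by
      by_contra hall
      push Not at hall
      exact he₀ ((hmk1 x).mpr ((mem_czS ρ).mpr hall))
    let y' : Q := ⟨y, hy⟩
    obtain ⟨m, hm⟩ := hsig (mk x)
    obtain ⟨n, hn⟩ := hsig (mk y')
    obtain ⟨l, hl⟩ := hsig (mk x * mk y')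
    have hindep : mk x ∉ Subgroup.zpowers (mk y') := fun h => by
      obtain ⟨k, hk⟩ := hUpow h
      exact hxy (hcomm_pow k hk).symm
    have hy1 : mk y' ≠ 1 := fun h => hxy ((mem_czS ρ).mp ((hmk1 y').mp h) x x.2).symm
    have hml : mk x ^ m = mk x ^ l := by
      by_contra hne
      rw [map_mul, hm, hn, (show Commute (mk x) (mk y') from hUcomm _ _).mul_pow] at hl
      have h1 : mk x ^ m * (mk x ^ l)⁻¹ ∈ Subgroup.zpowers (mk y') := by
        have h2 : mk x ^ m * (mk x ^ l)⁻¹ = mk y' ^ l * (mk y' ^ n)⁻¹ := by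
          rw [mul_inv_eq_iff_eq_mul, mul_assoc, hUcomm _ (mk x ^ l), ← mul_assoc, ← mul_inv_eq_iff_eq_mul.mpr hl.symm]
          rw [hUcomm (mk y' ^ l) (mk x ^ l)]
        rw [h2]
        exact Subgroup.mul_mem _ (Subgroup.npow_mem_zpowers _ _) (Subgroup.inv_mem _ (Subgroup.npow_mem_zpowers _ _))
      set d := mk x ^ m * (mk x ^ l)⁻¹ with hd
      have hd1 : d ≠ 1 := fun h => hne (mul_inv_eq_one.mp h)
      have hdx : d ∈ Subgroup.zpowers (mk x) :=
        Subgroup.mul_mem _ (Subgroup.npow_mem_zpowers _ _) (Subgroup.inv_mem _ (Subgroup.npow_mem_zpowers _ _))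
      obtain ⟨k, hk⟩ := hUpow hdx
      obtain ⟨i, hi⟩ : ∃ i, (mk x ^ k) ^ i = mk x := exists_pow_eq_self_of_coprime (by
        rw [hord he₀]
        refine ((hq.out.coprime_iff_not_dvd).mpr fun hdvd => hd1 ?_).symm
        obtain ⟨j', rfl⟩ := hdvd
        rw [hk, pow_mul, hUq, one_pow])
      exact hindep (hi ▸ hk ▸ Subgroup.pow_mem _ h1 i)
    have hnl : mk y' ^ n = mk y' ^ l := by
      rw [map_mul, hm, hn, (show Commute (mk x) (mk y') from hUcomm _ _).mul_pow, hml] at hl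
      exact mul_left_cancel hl
    rw [hml] at hm
    rw [hnl] at hn
    obtain ⟨ζ, hζ0, hζ⟩ := hsc x y'
    have hζq := hzetaq x y' ζ hζ
    have hζ1 : ζ ≠ 1 := fun h => hxy (by
      rw [h, one_smul] at hζ
      have h5 := congrArg (fun z => z * ρ (x : H)) hζ
      simp only [← map_mul, inv_mul_cancel_right] at h5
      exact h5.symm)
    -- apply `a`
    have hrep : ∀ z : Q, σ (mk z) = mk z ^ l → ∃ c : K, c ≠ 0 ∧ ρ (a * z * a⁻¹) = c • ρ ((z : H) ^ l) := by
      intro z hz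
      have hzc : ((z ^ l)⁻¹ * cj ⟨a, hA0 ha⟩ z : Q) ∈ Zs := by
        rw [hmemZs, ← hmk1, map_mul, map_inv, map_pow, inv_mul_eq_one]
        exact hz.symm
      rw [hmemZs] at hzc
      obtain ⟨c, hc⟩ := hscal _ (Subtype.coe_prop _) hzc
      push_cast at hc
      rw [hcj] at hc
      change ρ (((z : H) ^ l)⁻¹ * (a * z * a⁻¹)) = c • 1 at hc
      refine ⟨c, fun h0 => rho_ne_zero ρ _ (by rw [hc, h0, zero_smul]), ?_⟩
      rw [show a * (z : H) * a⁻¹ = (z : H) ^ l * (((z : H) ^ l)⁻¹ * (a * z * a⁻¹)) by group, map_mul, hc,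
        mul_smul_comm, mul_one]
    obtain ⟨cx, hcx0, hcx⟩ := hrep x hm
    obtain ⟨cy, hcy0, hcy⟩ := hrep y' hn
    have hcxi : ρ (a * x * a⁻¹)⁻¹ = cx⁻¹ • ρ ((x : H) ^ l)⁻¹ := by
      have h1 := (rho_inv ρ (a * x * a⁻¹)).2
      rw [hcx, mul_smul_comm] at h1
      calc ρ (a * x * a⁻¹)⁻¹ = cx⁻¹ • ((cx • (ρ (a * x * a⁻¹)⁻¹ * ρ ((x : H) ^ l))) * ρ ((x : H) ^ l)⁻¹) := by
            rw [smul_mul_assoc, smul_smul, inv_mul_cancel₀ hcx0, one_smul, mul_assoc (ρ (a * x * a⁻¹)⁻¹), (rho_inv ρ _).1, mul_one]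
        _ = cx⁻¹ • ρ ((x : H) ^ l)⁻¹ := by rw [h1, one_mul]
    have hbig : ∀ k : ℕ, ρ ((x : H) ^ k * (y : H) ^ l * ((x : H) ^ k)⁻¹) = (ζ ^ l) ^ k • ρ ((y : H) ^ l) := by
      intro k
      induction k with
      | zero => simp
      | succ k ih =>
        rw [show (x : H) ^ (k + 1) * (y : H) ^ l * ((x : H) ^ (k + 1))⁻¹ =
          (x : H) * ((x : H) ^ k * (y : H) ^ l * ((x : H) ^ k)⁻¹) * (x : H)⁻¹ by rw [pow_succ']; group,
          map_mul, map_mul, ih, mul_smul_comm, smul_mul_assoc, ← map_mul, ← map_mul, hpowu _ _ ζ hζ l, smul_smul,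
          ← pow_succ]
    have h1 : ρ ((a * x * a⁻¹) * (a * y * a⁻¹) * (a * x * a⁻¹)⁻¹) = ζ • ρ (a * y * a⁻¹) := by
      rw [show (a * x * a⁻¹) * (a * y * a⁻¹) * (a * x * a⁻¹)⁻¹ = a * ((x : H) * y * (x : H)⁻¹) * a⁻¹ by group,
        map_mul, map_mul, hζ, mul_smul_comm, smul_mul_assoc, ← map_mul, ← map_mul]
    rw [map_mul, map_mul, hcx, show ρ (a * y * a⁻¹) = cy • ρ ((y : H) ^ l) from hcy, hcxi] at h1
    simp only [smul_mul_assoc, mul_smul_comm, smul_smul, ← map_mul] at h1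
    rw [hbig l, smul_smul] at h1
    have h2 := smul_left_injective K (rho_ne_zero ρ ((y : H) ^ l)) h1
    have h3 : ζ ^ (l * l) = ζ := by
      rw [← pow_mul] at h2
      refine mul_left_cancel₀ hcy0 ?_
      have h4 : cx⁻¹ * (cy * cx) * ζ ^ (l * l) = ζ * cy := h2
      field_simp at h4 ⊢
      linear_combination h4
    have hζord : orderOf ζ = q := orderOf_eq_prime hζq hζ1
    have hll : l * l ≡ 1 [MOD q] := by
      rw [← hζord]
      have h5 := (pow_eq_pow_iff_modEq (x := Units.mk0 ζ hζ0) (n := l * l) (m := 1)).mp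
        (Units.ext (by rw [Units.val_pow_eq_pow_val, Units.val_pow_eq_pow_val, Units.val_mk0, h3, pow_one]))
      rwa [← orderOf_units, Units.val_mk0] at h5
    have hxx : σ (σ (mk x)) = mk x := by
      rw [hm, map_pow, hm, ← pow_mul]
      conv_rhs => rw [← pow_one (mk x)]
      exact pow_eq_pow_iff_modEq.mpr ((hord he₀).symm ▸ hll)
    refine he₀ (hfree _ ?_)
    have heven : ∀ k, σ^[2 * k] (mk x) = mk x := by
      intro k
      induction k with
      | zero => rfl
      | succ k ih => rw [Nat.mul_succ, Function.iterate_add_apply]; exact (congrArg (σ^[2 * k]) hxx).trans ih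
    obtain ⟨k, hk⟩ := hp.out.odd_of_ne_two hp2
    have h5 := hσp (mk x)
    rwa [hk, add_comm, Function.iterate_add_apply, heven, Function.iterate_one] at h5

end core

section claim

variable {K : Type*} [Field K]

/-- The common eigenspace of the images of `Z`. -/
def joint {M : Type v} [AddCommGroup M] [Module K M] {H : Type u} [Group H] (ρ : H →* Module.End K M)
    (Z : Subgroup H) (φ : Z → K) : Submodule K M :=
  ⨅ z : Z, Module.End.eigenspace (ρ (z : H)) (φ z)

theorem mem_joint {M : Type v} [AddCommGroup M] [Module K M] {H : Type u} [Group H] {ρ : H →* Module.End K M}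
    {Z : Subgroup H} {φ : Z → K} {v : M} : v ∈ joint ρ Z φ ↔ ∀ z : Z, ρ (z : H) v = φ z • v := by
  simp only [joint, Submodule.mem_iInf, Module.End.mem_eigenspace_iff]

theorem joint_indep {M : Type v} [AddCommGroup M] [Module K M] {H : Type u} [Group H] (ρ : H →* Module.End K M)
    (Z : Subgroup H) (hZ : ∀ x ∈ Z, ∀ y ∈ Z, ρ (x * y) = ρ (y * x)) : iSupIndep (joint ρ Z) := by
  refine (Module.End.independent_iInf_maxGenEigenspace_of_forall_mapsTo (fun z : Z => ρ (z : H)) fun x y φ =>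
    Module.End.mapsTo_maxGenEigenspace_of_comm ?_ φ).mono fun φ => ?_
  · show ρ (y : H) * ρ (x : H) = ρ (x : H) * ρ (y : H)
    rw [← map_mul, ← map_mul, hZ y y.2 x x.2]
  · exact iInf_mono fun z => Module.End.eigenspace_le_maxGenEigenspace

theorem joint_map {M : Type v} [AddCommGroup M] [Module K M] {H : Type u} [Group H] {ρ : H →* Module.End K M}
    {Z : Subgroup H} {t : H} (ht : ∀ z ∈ Z, t⁻¹ * z * t ∈ Z) {χ : H → K} {v : M}
    (hv : v ∈ joint ρ Z fun z => χ z) : ρ t v ∈ joint ρ Z fun z => χ (t⁻¹ * z * t) := by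
  rw [mem_joint] at hv ⊢
  intro z
  have h := hv ⟨_, ht z z.2⟩
  rw [← Module.End.mul_apply, ← map_mul, show (z : H) * t = t * (t⁻¹ * z * t) by group, map_mul,
    Module.End.mul_apply, h, map_smul]

theorem dprod_mem {M : Type v} [AddCommGroup M] [Module K M] {H : Type u} [Group H] [Finite H]
    (ρ : H →* Module.End K M) (W : Submodule K M) (t : ℕ → H) (ht : ∀ i, t i ∈ stab ρ W) {w : M} (hw : w ∈ W) :
    ∀ n, dprod ρ t n w ∈ W := by
  intro n
  induction n with
  | zero => simpa [dprod] using hw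
  | succ n ih =>
    rw [dprod, Module.End.mul_apply, LinearMap.sub_apply, Module.End.one_apply]
    exact W.sub_mem (ht n _ ih) ih

/-- Restriction of the hypotheses to an invariant subspace, with the chain shifted by `k`. -/
theorem Setup.restrict {M : Type v} [AddCommGroup M] [Module K M] {H : Type u} [Group H] [Finite H]
    {p q : ℕ} {ρ : H →* Module.End K M} {Q : Subgroup H} {T : ℕ → Subgroup H} {j k : ℕ}
    (S : Setup p q ρ Q T (j + k)) (W : Submodule K M) (hQW : Q ≤ stab ρ W) (hTW : T k ≤ stab ρ W)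
    (hkill : ∀ t : ℕ → H, (∀ i, t i ∈ T (i + k)) → ∀ w ∈ W, dprod ρ t (j + 1) w = 0) :
    Setup p q (res ρ W) (Q.subgroupOf (stab ρ W)) (fun i => (T (i + k)).subgroupOf (stab ρ W)) j where
  hQ := S.hQ.comap_subtype
  hT i := by
    rw [← Subgroup.map_subtype_le_map_subtype, Subgroup.map_commutator, Subgroup.subgroupOf_map_subtype,
      Subgroup.subgroupOf_map_subtype, inf_eq_left.mpr ((chain_le S.hT k _).trans hTW),
      inf_eq_left.mpr ((chain_le S.hT k i).trans hTW), show i + 1 + k = i + k + 1 by omega]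
    exact S.hT _
  hT0 := (S.hT0.to_le (chain_antitone S.hT _)).comap_subtype
  hTQ := fun t ht => Subgroup.mem_normalizer_iff.mpr fun x => by
    have h : (t : H) ∈ T 0 := chain_antitone S.hT _ (Subgroup.mem_subgroupOf.mp ht)
    simp only [SetLike.mem_coe, Subgroup.mem_subgroupOf, Subgroup.coe_mul, InvMemClass.coe_inv]
    exact Subgroup.mem_normalizer_iff.mp (S.hTQ h) x
  hA := fun t ht => Subgroup.mem_normalizer_iff.mpr fun x => by
    have h : (t : H) ∈ T 0 := chain_antitone S.hT _ (Subgroup.mem_subgroupOf.mp ht)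
    simp only [SetLike.mem_coe, Subgroup.mem_subgroupOf, Subgroup.coe_mul, InvMemClass.coe_inv]
    exact Subgroup.mem_normalizer_iff.mp (S.hA h) x
  hcomm a ha b hb := LinearMap.ext fun w => Subtype.ext (by
    rw [coe_res, coe_res, Subgroup.coe_mul, Subgroup.coe_mul]
    exact LinearMap.congr_fun (S.hcomm _ ha _ hb) (w : M))
  hquad a ha b hb := LinearMap.ext fun w => Subtype.ext (by
    simp only [Module.End.mul_apply, LinearMap.sub_apply, Module.End.one_apply, AddSubgroupClass.coe_sub, coe_res,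
      LinearMap.zero_apply, ZeroMemClass.coe_zero]
    have h := LinearMap.congr_fun (S.hquad _ ha _ hb) (w : M)
    simpa [Module.End.mul_apply] using h)
  hkill t ht := LinearMap.ext fun w => Subtype.ext (by
    rw [coe_dprod_res, LinearMap.zero_apply, ZeroMemClass.coe_zero]
    exact hkill _ (fun i => ht i) w w.2)

set_option maxHeartbeats 1600000 in
/-- In characteristic `p`, `A = T j` commutes with `Q`. -/
theorem claim [IsAlgClosed K] {p q : ℕ} [hp : Fact p.Prime] [hq : Fact q.Prime] [CharP K p] (hp2 : p ≠ 2)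
    (hpq : p ≠ q) : ∀ (j n : ℕ) {M : Type v} [AddCommGroup M] [Module K M] [FiniteDimensional K M] {H : Type u}
      [Group H] [Finite H] (ρ : H →* Module.End K M) (Q : Subgroup H) (T : ℕ → Subgroup H),
      Nat.card Q + finrank K M ≤ n → Setup p q ρ Q T j → ∀ a ∈ T j, ∀ g ∈ Q, ρ (a * g) = ρ (g * a) := by
  intro j
  induction j using Nat.strong_induction_on with
  | _ j IHj =>
  intro n
  induction n using Nat.strong_induction_on with
  | _ n IHn =>
  intro M _ _ _ H _ _ ρ Q T hn S a ha g₀ hg₀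
  classical
  rcases Nat.eq_zero_or_pos j with rfl | hj
  · have h := S.hkill (fun i => if i = 0 then a else 1) (fun i => by
      by_cases hi : i = 0
      · rw [if_pos hi, hi]; exact ha
      · rw [if_neg hi]; exact one_mem _)
    simp only [dprod, if_true, mul_one, sub_eq_zero] at h
    rw [map_mul, map_mul, h, one_mul, mul_one]
  have hcop : Nat.Coprime p q := (Nat.coprime_primes hp.out hq.out).mpr hpq
  have hqord : ∀ r ∈ Q, ∃ k, r ^ q ^ k = 1 := fun r hr => by
    obtain ⟨k, hk⟩ := S.hQ ⟨r, hr⟩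
    exact ⟨k, congrArg Subtype.val hk⟩
  have hconjQ : ∀ t ∈ T 0, ∀ g ∈ Q, t * g * t⁻¹ ∈ Q := fun t ht g hg =>
    (Subgroup.mem_normalizer_iff.mp (S.hTQ ht) g).mp hg
  have hA0 : T j ≤ T 0 := chain_antitone S.hT j
  -- a smaller invariant subgroup is centralised
  have hsub : ∀ R : Subgroup H, R ≤ Q → Nat.card R < Nat.card Q → (∀ t ∈ T 0, ∀ r ∈ R, t * r * t⁻¹ ∈ R) →
      ∀ b ∈ T j, ∀ r ∈ R, ρ (b * r) = ρ (r * b) := fun R hRQ hlt hR =>
    IHn (Nat.card R + finrank K M) (by omega) ρ R T le_rfl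
      { S with
        hQ := S.hQ.to_le hRQ
        hTQ := fun t ht => Subgroup.mem_normalizer_iff.mpr fun x => ⟨fun h => hR t ht x h, fun h => by
          have h' := hR t⁻¹ ((T 0).inv_mem ht) _ h
          simpa [mul_assoc] using h'⟩ }
  let R : Subgroup H := Subgroup.closure {x | ∃ b ∈ T j, ∃ g ∈ Q, x = g⁻¹ * (b * g * b⁻¹)}
  have hRQ : R ≤ Q := by
    rw [Subgroup.closure_le]
    rintro _ ⟨b, hb, g, hg, rfl⟩
    exact Q.mul_mem (Q.inv_mem hg) (hconjQ b (hA0 hb) g hg)
  by_cases hRne : R ≠ Q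
  · have hlt : Nat.card R < Nat.card Q := by
      by_contra hle
      exact hRne (Subgroup.eq_of_le_of_card_ge hRQ (not_lt.mp hle))
    have hR : ∀ t ∈ T 0, ∀ r ∈ R, t * r * t⁻¹ ∈ R := fun t ht r hr => by
      have h : R.map (MulAut.conj t).toMonoidHom ≤ R := by
        rw [MonoidHom.map_closure, Subgroup.closure_le]
        rintro _ ⟨_, ⟨b, hb, g, hg, rfl⟩, rfl⟩
        refine Subgroup.subset_closure ⟨t * b * t⁻¹, (Subgroup.mem_normalizer_iff.mp (S.hA ht) b).mp hb,
          t * g * t⁻¹, hconjQ t ht g hg, ?_⟩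
        show t * (g⁻¹ * (b * g * b⁻¹)) * t⁻¹ = _
        group
      exact h ⟨r, hr, rfl⟩
    have hr : g₀⁻¹ * (a * g₀ * a⁻¹) ∈ R := Subgroup.subset_closure ⟨a, ha, g₀, hg₀, rfl⟩
    refine comm_of_conj ρ hcop (r := g₀⁻¹ * (a * g₀ * a⁻¹)) (by rw [mul_inv_cancel_left])
      (hsub R hRQ hlt hR a ha _ hr) (pow_p_eq_one ρ (S.hquad a ha a ha)) (hqord _ (hRQ hr))
  have hgen : Q ≤ R := (not_not.mp hRne).ge
  -- the Frattini subgroup is central in the image
  by_cases hQ1 : Q = ⊥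
  · rw [hQ1, Subgroup.mem_bot] at hg₀
    rw [hg₀, mul_one, one_mul]
  haveI : Nontrivial Q := (Subgroup.nontrivial_iff_ne_bot _).mpr hQ1
  let D : Subgroup H := (frattini Q).map Q.subtype
  have hDQ : D ≤ Q := Subgroup.map_subtype_le _
  have hDlt : Nat.card D < Nat.card Q := by
    have hne : frattini Q ≠ ⊤ := fun h => absurd
      (frattini_nongenerating (K := (⊥ : Subgroup Q)) (by rw [h, sup_top_eq])) bot_ne_top
    rw [Nat.card_congr ((frattini Q).equivMapOfInjective Q.subtype Q.subtype_injective).symm.toEquiv]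
    exact lt_of_le_of_ne (Subgroup.card_le_card_group _) fun h => hne (Subgroup.eq_top_of_card_eq _ h)
  have hDconj : ∀ t ∈ T 0, ∀ d ∈ D, t * d * t⁻¹ ∈ D := by
    rintro t ht _ ⟨d, hd, rfl⟩
    have h := Subgroup.characteristic_iff_map_le.mp (frattini_characteristic (G := Q))
      (Subgroup.normalizerMonoidHom Q ⟨t, S.hTQ ht⟩)
    exact ⟨_, h ⟨d, hd, rfl⟩, rfl⟩
  have hDA := hsub D hDQ hDlt hDconj
  have hDc : ∀ d ∈ D, d ∈ czS ρ (Q : Set H) := by
    have hle : Q ≤ czS ρ (D : Set H) := by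
      refine hgen.trans ?_
      rw [Subgroup.closure_le]
      rintro _ ⟨b, hb, g, hg, rfl⟩
      refine (mem_czS ρ).mpr fun d hd => ?_
      have hgd : g * d * g⁻¹ ∈ D := by
        obtain ⟨d', hd', rfl⟩ := hd
        exact ⟨(⟨g, hg⟩ : Q) * d' * (⟨g, hg⟩ : Q)⁻¹, (inferInstance : (frattini Q).Normal).conj_mem d' hd' _, rfl⟩
      have h1 : ρ (b⁻¹ * d * b) = ρ d := by
        rw [mul_assoc, map_mul, ← hDA b hb d hd, ← map_mul, inv_mul_cancel_left]
      have h2 : ρ (b * (g * d * g⁻¹) * b⁻¹) = ρ (g * d * g⁻¹) := by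
        rw [map_mul, hDA b hb _ hgd, ← map_mul, mul_inv_cancel_right]
      have h3 : ρ (g⁻¹ * (b * g * b⁻¹) * d * (g⁻¹ * (b * g * b⁻¹))⁻¹) = ρ d := by
        rw [show g⁻¹ * (b * g * b⁻¹) * d * (g⁻¹ * (b * g * b⁻¹))⁻¹ = g⁻¹ * (b * (g * (b⁻¹ * d * b) * g⁻¹) * b⁻¹) * g by group]
        simp only [map_mul ρ] at h2 ⊢
        rw [← map_mul ρ b⁻¹ d, ← map_mul ρ (b⁻¹ * d) b, h1, h2]
        simp only [← map_mul]
        congr 1
        group
      have h4 := congrArg (fun y => y * ρ (g⁻¹ * (b * g * b⁻¹))) h3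
      simp only [← map_mul, inv_mul_cancel_right] at h4
      exact h4.symm
    intro d hd
    exact (mem_czS ρ).mpr fun s hs => ((mem_czS ρ).mp (hle hs) d hd).symm
  have hpw : ∀ g ∈ Q, g ^ q ∈ czS ρ (Q : Set H) := fun g hg =>
    hDc _ ⟨(⟨g, hg⟩ : Q) ^ q, FGS3.pow_mem_frattini S.hQ _, rfl⟩
  have hcm : ∀ g ∈ Q, ∀ h ∈ Q, g * h * g⁻¹ * h⁻¹ ∈ czS ρ (Q : Set H) := fun g hg h hh =>
    hDc _ ⟨⁅(⟨g, hg⟩ : Q), (⟨h, hh⟩ : Q)⁆, FGS3.commutator_le_frattini S.hQ
      (Subgroup.commutator_mem_commutator (Subgroup.mem_top _) (Subgroup.mem_top _)), rfl⟩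
  by_cases hscal : ∀ z ∈ Q, z ∈ czS ρ (Q : Set H) → ∃ c : K, ρ z = c • 1
  · rcases subsingleton_or_nontrivial M with hM | hM
    · exact LinearMap.ext fun v => Subsingleton.elim _ _
    · exact core hp2 hpq S hj hgen hpw hcm hscal a ha g₀ hg₀
  push Not at hscal
  obtain ⟨z₀, hz₀, hz₀', hz₀n⟩ := hscal
  -- the subspace on which everything commutes
  let X : Submodule K M :=
    { carrier := {v | ∀ b ∈ T j, ∀ g ∈ Q, ρ (b * g) v = ρ (g * b) v}
      add_mem' := fun {v w} hv hw b hb g hg => by rw [map_add, map_add, hv b hb g hg, hw b hb g hg]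
      zero_mem' := fun b _ g _ => by rw [map_zero, map_zero]
      smul_mem' := fun c {v} hv b hb g hg => by rw [map_smul, map_smul, hv b hb g hg] }
  have hXQ : ∀ h ∈ Q, ∀ v ∈ X, ρ h v ∈ X := fun h hh v hv b hb g hg => by
    rw [← Module.End.mul_apply, ← map_mul, ← Module.End.mul_apply, ← map_mul, mul_assoc b g h,
      hv b hb _ (Q.mul_mem hg hh), mul_assoc g h b, mul_assoc g b h, map_mul, Module.End.mul_apply,
      ← hv b hb h hh, ← Module.End.mul_apply, ← map_mul]
  suffices hXtop : X = ⊤ by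
    exact LinearMap.ext fun v => (hXtop ▸ Submodule.mem_top : v ∈ X) a ha g₀ hg₀
  let Z : Subgroup H := Q ⊓ czS ρ (Q : Set H)
  have hZcomm : ∀ x ∈ Z, ∀ y ∈ Z, ρ (x * y) = ρ (y * x) := fun x hx y hy => (mem_czS ρ).mp hy.2 x hx.1
  have hZconj : ∀ t ∈ T 0, ∀ z ∈ Z, t⁻¹ * z * t ∈ Z := by
    intro t ht z hz
    refine ⟨by simpa using hconjQ t⁻¹ ((T 0).inv_mem ht) z hz.1, (mem_czS ρ).mpr fun s hs => ?_⟩
    have h1 := congrArg (fun y => ρ t⁻¹ * y * ρ t) ((mem_czS ρ).mp hz.2 _ (hconjQ t ht s hs))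
    simp only [← map_mul] at h1
    convert h1 using 2 <;> group
  have hQjoint : ∀ φ, Q ≤ stab ρ (joint ρ Z φ) := fun φ h hh v hv => by
    rw [mem_joint] at hv ⊢
    intro z
    rw [← Module.End.mul_apply, ← map_mul, ← (mem_czS ρ).mp z.2.2 h hh, map_mul, Module.End.mul_apply, hv z,
      map_smul]
  have hconcl : ∀ {W : Submodule K M} {k j' : ℕ}, j' + k = j → Q ≤ stab ρ W → T j ≤ stab ρ W →
      (∀ b ∈ (T (j' + k)).subgroupOf (stab ρ W), ∀ g ∈ Q.subgroupOf (stab ρ W),
        res ρ W (b * g) = res ρ W (g * b)) → W ≤ X := by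
    intro W k j' hjk hQW hTW h w hw b hb g hg
    exact congrArg Subtype.val (LinearMap.congr_fun (h ⟨b, hTW hb⟩ (Subgroup.mem_subgroupOf.mpr (hjk ▸ hb))
      ⟨g, hQW hg⟩ hg) ⟨w, hw⟩)
  have hEX : ∀ χ : H → K, joint ρ Z (fun z => χ z) ≤ X := by
    intro χ
    set W := joint ρ Z fun z => χ z with hW
    have hQW : Q ≤ stab ρ W := hQjoint _
    by_cases hstab : T 0 ≤ stab ρ W
    · have hlt : finrank K W < finrank K M := by
        refine Submodule.finrank_lt fun htop => hz₀n (χ z₀) (LinearMap.ext fun v => ?_)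
        have hv : v ∈ W := by rw [htop]; trivial
        exact mem_joint.mp hv ⟨z₀, hz₀, hz₀'⟩
      have S' : Setup p q (res ρ W) (Q.subgroupOf (stab ρ W)) (fun i => (T (i + 0)).subgroupOf (stab ρ W)) j :=
        Setup.restrict (k := 0) S W hQW hstab fun t ht w _ => by rw [S.hkill t ht, LinearMap.zero_apply]
      refine hconcl (k := 0) (j' := j) rfl hQW (hA0.trans hstab) ?_
      exact IHn (Nat.card (Q.subgroupOf (stab ρ W)) + finrank K W)
        (by rw [Nat.card_congr (Subgroup.subgroupOfEquivOfLe hQW).toEquiv]; omega) (res ρ W) _ _ le_rfl S'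
    -- otherwise the orbit is split in two
    let Stab : Subgroup (T 0) := (stab ρ W).subgroupOf (T 0)
    let M0 : Subgroup (T 0) := Stab ⊔ commutator (T 0)
    have hM0 : M0 ≠ ⊤ := fun h => hstab (Subgroup.subgroupOf_eq_top.mp (frattini_nongenerating
      (le_antisymm le_top (h ▸ sup_le_sup_left (FGS3.commutator_le_frattini S.hT0) _))))
    obtain ⟨g, -, hg⟩ := SetLike.exists_of_lt (lt_top_iff_ne_top.mpr hM0)
    let sh : T 0 → Z → K := fun m z => χ ((m : H)⁻¹ * z * m)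
    let W0 : Submodule K M := ⨆ φ ∈ {φ : Z → K | ∃ m ∈ M0, φ = sh m}, joint ρ Z φ
    let W1 : Submodule K M := ⨆ φ ∈ {φ : Z → K | ∃ m ∈ M0, φ = sh (g * m)}, joint ρ Z φ
    have hsh : ∀ (x m : T 0) v, v ∈ joint ρ Z (sh m) → ρ (x : H) v ∈ joint ρ Z (sh (x * m)) := by
      intro x m v hv
      have h := joint_map (χ := fun z => χ ((m : H)⁻¹ * z * m)) (hZconj x x.2) hv
      convert h using 3 with z
      simp only [sh, Subgroup.coe_mul]
      congr 1
      group
    have hM0W : ∀ x ∈ M0, (x : H) ∈ stab ρ W0 := by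
      intro x hx v hv
      revert v
      show W0 ≤ W0.comap (ρ (x : H))
      refine iSup₂_le fun φ hφ v hv => ?_
      obtain ⟨m, hm, rfl⟩ := hφ
      exact Submodule.mem_iSup_of_mem (sh (x * m))
        (Submodule.mem_iSup_of_mem ⟨x * m, M0.mul_mem hx hm, rfl⟩ (hsh x m v hv))
    have hgW : W0.map (ρ (g : H)) ≤ W1 := by
      rw [Submodule.map_le_iff_le_comap]
      refine iSup₂_le fun φ hφ v hv => ?_
      obtain ⟨m, hm, rfl⟩ := hφ
      exact Submodule.mem_iSup_of_mem (sh (g * m)) (Submodule.mem_iSup_of_mem ⟨m, hm, rfl⟩ (hsh g m v hv))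
    have hdisj : Disjoint W0 W1 := by
      refine (joint_indep ρ Z hZcomm).disjoint_biSup_biSup (Set.disjoint_left.mpr ?_)
      rintro _ ⟨m, hm, rfl⟩ ⟨m', hm', he⟩
      refine hg ?_
      have hst : m⁻¹ * (g * m') ∈ M0 := Subgroup.mem_sup_left (Subgroup.mem_subgroupOf.mpr fun v hv => by
        rw [hW, mem_joint]
        intro z
        have hv' := mem_joint.mp (joint_map (χ := χ) (hZconj _ (m⁻¹ * (g * m') : T 0).2) hv) z
        refine hv'.trans (congrArg (· • _) ?_)
        have hz : (m : H) * z * (m : H)⁻¹ ∈ Z := by simpa using hZconj _ ((T 0).inv_mem m.2) z z.2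
        have h := (congrFun he ⟨_, hz⟩).symm
        simp only [sh, Subgroup.coe_mul] at h
        simp only [Subgroup.coe_mul, InvMemClass.coe_inv]
        refine (Eq.trans ?_ h).trans ?_ <;> congr 1 <;> group)
      have h := M0.mul_mem (M0.mul_mem hm hst) (M0.inv_mem hm')
      rwa [mul_inv_cancel_left, mul_inv_cancel_right] at h
    have hT1 : ∀ t ∈ T 1, ∃ x ∈ commutator (T 0), (x : H) = t := fun t ht => by
      have h := S.hT 0 ht
      rw [← Subgroup.range_subtype (T 0), MonoidHom.range_eq_map, ← Subgroup.map_commutator] at h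
      exact h
    have hTW0 : T 1 ≤ stab ρ W0 := fun t ht => by
      obtain ⟨x, hx, rfl⟩ := hT1 t ht
      exact hM0W x (Subgroup.mem_sup_right hx)
    have hTW1 : T 1 ≤ stab ρ (W0.map (ρ (g : H))) := fun t ht => by
      obtain ⟨x, hx, rfl⟩ := hT1 t ht
      rintro _ ⟨v, hv, rfl⟩
      refine ⟨_, hM0W (g⁻¹ * x * g) (Subgroup.mem_sup_right ?_) v hv, ?_⟩
      · simpa using (inferInstance : (commutator (T 0)).Normal).conj_mem x hx g⁻¹
      · rw [← Module.End.mul_apply, ← map_mul, ← Module.End.mul_apply, ← map_mul]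
        simp [mul_assoc]
    obtain ⟨j', rfl⟩ : ∃ j', j = j' + 1 := ⟨j - 1, by omega⟩
    have hkill : ∀ t : ℕ → H, (∀ i, t i ∈ T (i + 1)) → ∀ w ∈ W0, dprod ρ t (j' + 1) w = 0 := by
      intro t ht w hw
      have h := S.hkill (fun i => if i = 0 then (g : H) else t (i - 1)) (fun i => by
        by_cases hi : i = 0
        · rw [if_pos hi, hi]; exact g.2
        · rw [if_neg hi, show i = i - 1 + 1 by omega]; exact ht _)
      rw [dprod_succ'] at h
      simp only [Nat.add_sub_cancel, if_true, Nat.succ_ne_zero, if_false] at h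
      have h' := LinearMap.congr_fun h w
      rw [Module.End.mul_apply, LinearMap.sub_apply, Module.End.one_apply, map_sub, LinearMap.zero_apply,
        sub_eq_zero] at h'
      have ht1 : ∀ i, t i ∈ T 1 := fun i => chain_le S.hT 1 i (ht i)
      have h0 : dprod ρ t (j' + 1) w ∈ W0 := dprod_mem ρ W0 t (fun i => hTW0 (ht1 i)) hw _
      have h1 : dprod ρ t (j' + 1) w ∈ W1 := by
        rw [← h']
        exact hgW (dprod_mem ρ _ t (fun i => hTW1 (ht1 i)) ⟨w, hw, rfl⟩ _)
      exact (Submodule.mem_bot K).mp (hdisj.eq_bot ▸ ⟨h0, h1⟩)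
    have hQW0 : Q ≤ stab ρ W0 := fun x hx => by
      show W0 ≤ W0.comap (ρ x)
      exact iSup₂_le fun φ hφ v hv => Submodule.mem_iSup_of_mem φ (Submodule.mem_iSup_of_mem hφ (hQjoint φ hx v hv))
    have hWW0 : W ≤ W0 := fun v hv => Submodule.mem_iSup_of_mem (sh 1) (Submodule.mem_iSup_of_mem ⟨1, M0.one_mem, rfl⟩
      (by simpa [sh, hW] using hv))
    refine hWW0.trans (hconcl (k := 1) rfl hQW0 ((chain_le S.hT 1 j').trans hTW0) ?_)
    exact IHj j' (Nat.lt_succ_self _) _ (res ρ W0) _ _ le_rfl (Setup.restrict S W0 hQW0 hTW0 hkill)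
  -- averaged projection onto `X`
  by_contra hX
  haveI : Fintype Z := Fintype.ofFinite Z
  have hcard : (Fintype.card Z : K) ≠ 0 := by
    obtain ⟨m, hm⟩ := IsPGroup.iff_card.mp (S.hQ.to_le (inf_le_left : Z ≤ Q))
    rw [Nat.card_eq_fintype_card] at hm
    rw [hm, Nat.cast_pow]
    refine pow_ne_zero _ fun h => ?_
    exact hpq ((Nat.prime_dvd_prime_iff_eq hp.out hq.out).mp ((CharP.cast_eq_zero_iff K p q).mp h))
  obtain ⟨C, hC⟩ := X.exists_isCompl
  let π : Module.End K M := X.subtype ∘ₗ X.projectionOnto C hC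
  let P : Module.End K M := (Fintype.card Z : K)⁻¹ • ∑ z : Z, ρ (z : H) * π * ρ (z : H)⁻¹
  have hPmem : ∀ v, P v ∈ X := fun v => by
    simp only [P, LinearMap.smul_apply, LinearMap.sum_apply, Module.End.mul_apply]
    exact X.smul_mem _ (X.sum_mem fun z _ => hXQ _ z.2.1 _ (Submodule.coe_mem _))
  have hPid : ∀ v ∈ X, P v = v := fun v hv => by
    simp only [P, LinearMap.smul_apply, LinearMap.sum_apply, Module.End.mul_apply]
    rw [Finset.sum_congr rfl (fun (z : Z) _ => show ρ (z : H) (π (ρ (z : H)⁻¹ v)) = v from ?_), Finset.sum_const,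
      Finset.card_univ, ← Nat.cast_smul_eq_nsmul K, smul_smul, inv_mul_cancel₀ hcard, one_smul]
    rw [show π (ρ (z : H)⁻¹ v) = ρ (z : H)⁻¹ v from
      congrArg Subtype.val (X.projectionOnto_apply_left hC ⟨_, hXQ _ (Q.inv_mem z.2.1) v hv⟩),
      ← Module.End.mul_apply, (rho_inv ρ _).1, Module.End.one_apply]
  have hPc : ∀ x : Z, ρ (x : H) * P = P * ρ (x : H) := fun x => by
    simp only [P, mul_smul_comm, smul_mul_assoc, Finset.mul_sum, Finset.sum_mul]
    congr 1
    rw [← Equiv.sum_comp (Equiv.mulLeft x) (fun z : Z => ρ (z : H) * π * ρ (z : H)⁻¹ * ρ (x : H))]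
    refine Finset.sum_congr rfl fun z _ => ?_
    simp only [Equiv.coe_mulLeft, Subgroup.coe_mul, mul_inv_rev, map_mul, mul_assoc, (rho_inv ρ (x : H)).2, mul_one]
  have hker : LinearMap.ker P ≠ ⊥ := fun h => hX (eq_top_iff.mpr fun v _ => by
    have h1 : v - P v ∈ LinearMap.ker P := by rw [LinearMap.mem_ker, map_sub, hPid _ (hPmem v), sub_self]
    rw [h, Submodule.mem_bot, sub_eq_zero] at h1
    exact h1 ▸ hPmem v)
  obtain ⟨u, hu, hu0, hc⟩ := exists_common ((fun z : Z => ρ (z : H)) '' Set.univ)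
    (by rintro _ ⟨x, -, rfl⟩ _ ⟨y, -, rfl⟩; rw [← map_mul, ← map_mul, hZcomm x x.2 y y.2])
    (LinearMap.ker P) hker (by
      rintro _ ⟨x, -, rfl⟩ v hv
      rw [LinearMap.mem_ker] at hv ⊢
      rw [← Module.End.mul_apply, ← hPc, Module.End.mul_apply, hv, map_zero])
  choose c hc using fun z : Z => hc _ ⟨z, trivial, rfl⟩
  let χ : H → K := fun h => if hh : h ∈ Z then c ⟨h, hh⟩ else 0
  have huX : u ∈ X := hEX χ (mem_joint.mpr fun z => by simp only [χ, dif_pos z.2]; exact hc z)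
  exact hu0 (by rw [← hPid u huX]; exact LinearMap.mem_ker.mp hu)

end claim

end Cfsg.Agent.Core.HH.Quad
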