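/-
Core library, Hall–Higman: the p-length is at most the derived length of the Sylow subgroups, `p` odd.
-/
import Cfsg.Agent.Core.HallHigman.QuadraticChain

set_option autoImplicit false
set_option linter.style.haveILetI false
set_option linter.unusedSectionVars false
set_option maxSynthPendingDepth 4

namespace Cfsg.Agent.Core.HH

open Module Cfsg
open scoped commutatorElement

universe u

variable {p : ℕ} [hp : Fact p.Prime]

/-- A Sylow subgroup whose derived chain reaches the bottom in `d` steps. -/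
def SylowDL (p d : ℕ) (G : Type*) [Group G] : Prop :=
  ∃ (S : Sylow p G) (Ts : ℕ → Subgroup G), Ts 0 = (S : Subgroup G) ∧ (∀ i, Ts (i + 1) = ⁅Ts i, Ts i⁆) ∧ Ts d = ⊥

theorem sylowDL_of_derivedSeries {G : Type*} [Group G] [Finite G] {d : ℕ}
    (h : ∀ P : Sylow p G, derivedSeries ↥(P : Subgroup G) d = ⊥) : SylowDL p d G := by
  obtain ⟨P⟩ : Nonempty (Sylow p G) := inferInstance
  refine ⟨P, fun i => (derivedSeries ↥(P : Subgroup G) i).map (P : Subgroup G).subtype, ?_, fun i => ?_, ?_⟩
  · show Subgroup.map _ (derivedSeries _ 0) = _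
    rw [derivedSeries_zero, ← MonoidHom.range_eq_map, Subgroup.range_subtype]
  · beta_reduce; rw [derivedSeries_succ, Subgroup.map_commutator]
  · beta_reduce; rw [h P, Subgroup.map_bot]

theorem SylowDL.quotient {G : Type*} [Group G] [Finite G] {d : ℕ} (h : SylowDL p d G) (N : Subgroup G) [N.Normal] :
    SylowDL p d (G ⧸ N) := by
  obtain ⟨S, Ts, h0, hs, hd⟩ := h
  refine ⟨S.mapSurjective (QuotientGroup.mk'_surjective N), fun i => (Ts i).map (QuotientGroup.mk' N), ?_, fun i => ?_, ?_⟩
  · beta_reduce; rw [Sylow.coe_mapSurjective, h0]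
  · beta_reduce; rw [hs, Subgroup.map_commutator]
  · beta_reduce; rw [hd, Subgroup.map_bot]

theorem map_dprod {K K' : Type*} [Field K] [Field K'] {M M' : Type*} [AddCommGroup M] [Module K M] [AddCommGroup M']
    [Module K' M'] {H : Type*} [Group H] (L : H →* Module.End K M) (φ : Module.End K M →+* Module.End K' M')
    (t : ℕ → H) : ∀ n, φ (Quad.dprod L t n) = Quad.dprod (φ.toMonoidHom.comp L) t n := by
  intro n
  induction n with
  | zero => simp [Quad.dprod]
  | succ n ih =>
    simp only [Quad.dprod, map_mul, map_sub, map_one, ih]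
    rfl

set_option maxHeartbeats 800000 in
/-- The last nontrivial term of the derived chain of a Sylow subgroup lies in `O_p`. -/
theorem last_le_pCore {G : Type u} [Group G] [Finite G] (hp2 : p ≠ 2) (hs : IsPSolvable p G)
    (h0 : pPrimeCore p G = ⊥) {d : ℕ} (S : Sylow p G) (Ts : ℕ → Subgroup G) (hT0 : Ts 0 = (S : Subgroup G))
    (hTs : ∀ i, Ts (i + 1) = ⁅Ts i, Ts i⁆) (hTd : Ts (d + 1) = ⊥) : Ts d ≤ pCore p G := by
  classical
  obtain ⟨M, _, _, _, π, L, hsurj, hadd, hinj, hconj⟩ := exists_quotient_rep hs h0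
  let V := pCore p G
  have hVS : V ≤ Ts 0 := hT0 ▸ pCore_le_sylow S
  have hπ1 : π 1 = 0 := by
    have h := hadd 1 1
    rwa [one_mul, left_eq_add] at h
  have hπinv : ∀ w, π w⁻¹ = - π w := fun w => by
    rw [eq_neg_iff_add_eq_zero, ← hadd, inv_mul_cancel, hπ1]
  have hstep : ∀ (g : G) (w : V), ∃ c : V, (c : G) = ⁅g, (w : G)⁆ ∧
      π c = (L (QuotientGroup.mk' V g) - 1) (π w) := by
    intro g w
    let w' : V := ⟨g * w * g⁻¹, (inferInstance : V.Normal).conj_mem w w.2 g⟩
    refine ⟨w' * w⁻¹, by simp [w', commutatorElement_def], ?_⟩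
    rw [hadd, hπinv, hconj g w w' rfl, LinearMap.sub_apply, Module.End.one_apply, sub_eq_add_neg]
  have hTc : ∀ i, ⁅Ts i, Ts i⁆ ≤ Ts i := fun i => Quad.commutator_le_self _
  have hSn : ∀ i, Ts 0 ≤ Subgroup.normalizer (Ts i : Set G) := by
    intro i
    induction i with
    | zero => exact Subgroup.le_normalizer
    | succ i ih => rw [hTs]; exact fun t ht => Quad.map_conj_commutator (ih ht)
  have habel : ∀ a ∈ Ts d, ∀ b ∈ Ts d, ⁅a, b⁆ = 1 := fun a ha b hb => by
    have h := Subgroup.commutator_mem_commutator ha hb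
    rwa [← hTs, hTd, Subgroup.mem_bot] at h
  let T : ℕ → Subgroup (G ⧸ V) := fun i => (Ts i).map (QuotientGroup.mk' V)
  -- products along the chain vanish
  have hkill : ∀ t : ℕ → G ⧸ V, (∀ i, t i ∈ T i) → Quad.dprod L t (d + 1) = 0 := by
    intro t ht
    choose s hs' hst using ht
    refine LinearMap.ext fun m => ?_
    obtain ⟨v, rfl⟩ := hsurj m
    have key : ∀ n, ∃ w : V, (w : G) ∈ Ts n ∧ Quad.dprod L t n (π v) = π w := by
      intro n
      induction n with
      | zero => exact ⟨v, hVS v.2, by simp [Quad.dprod]⟩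
      | succ n ih =>
        obtain ⟨w, hw, he⟩ := ih
        obtain ⟨c, hc, hc'⟩ := hstep (s n) w
        refine ⟨c, ?_, ?_⟩
        · rw [hc, hTs]; exact Subgroup.commutator_mem_commutator (hs' n) hw
        · rw [hc', hst, ← he]; rfl
    obtain ⟨w, hw, he⟩ := key (d + 1)
    rw [hTd, Subgroup.mem_bot] at hw
    rw [he, show w = 1 from Subtype.ext hw, hπ1, LinearMap.zero_apply]
  have hquad : ∀ a ∈ T d, ∀ b ∈ T d, (L a - 1) * (L b - 1) = 0 := by
    rintro _ ⟨a, ha, rfl⟩ _ ⟨b, hb, rfl⟩
    refine LinearMap.ext fun m => ?_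
    obtain ⟨v, rfl⟩ := hsurj m
    obtain ⟨c, hc, hc'⟩ := hstep b v
    obtain ⟨e, he, he'⟩ := hstep a c
    rw [Module.End.mul_apply, ← hc', ← he', LinearMap.zero_apply, ← hπ1]
    refine congrArg π (Subtype.ext (he.trans ?_))
    refine habel a ha _ ?_
    rw [hc, commutatorElement_def, mul_assoc, mul_assoc]
    refine (Ts d).mul_mem hb ?_
    rw [← mul_assoc]
    exact (Subgroup.mem_normalizer_iff.mp (hSn d (hVS v.2)) b⁻¹).mp ((Ts d).inv_mem hb)
  -- extend the scalars
  haveI : Module.Finite (ZMod p) M := Module.Finite.of_finite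
  let K := AlgebraicClosure (ZMod p)
  haveI : CharP K p := charP_of_injective_algebraMap (algebraMap (ZMod p) K).injective p
  let b := Module.finBasis (ZMod p) M
  let φ : Module.End (ZMod p) M →+* Module.End K (Fin (Module.finrank (ZMod p) M) → K) :=
    ((Matrix.toLinAlgEquiv' (R := K)).toRingEquiv.toRingHom.comp
      ((algebraMap (ZMod p) K).mapMatrix.comp (LinearMap.toMatrixAlgEquiv b).toRingEquiv.toRingHom))
  have hφ : Function.Injective φ := by
    intro A B hAB
    exact (LinearMap.toMatrixAlgEquiv b).injective (Matrix.map_injective (algebraMap (ZMod p) K).injective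
      ((Matrix.toLinAlgEquiv' (R := K)).injective hAB))
  let ρ := φ.toMonoidHom.comp L
  have hρ : Function.Injective ρ := hφ.comp hinj
  -- commuting with the invariant Sylow subgroups of `O_{p'}`
  set N := pPrimeCore p (G ⧸ V) with hN
  have hT0p : IsPGroup p (T 0) := by
    show IsPGroup p ((Ts 0).map _)
    rw [hT0]; exact S.isPGroup'.map _
  have hA : T 0 ≤ Subgroup.normalizer (N : Set (G ⧸ V)) := by
    rw [Subgroup.normalizer_eq_top]; exact le_top
  have hcop : (Nat.card (T 0)).Coprime (Nat.card N) := by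
    obtain ⟨n, hn⟩ := IsPGroup.iff_card.mp hT0p
    rw [hn]; exact (card_pPrimeCore_coprime p (G ⧸ V)).symm.pow_left n
  have hsol : Group.IsSolvable (T 0) := by
    haveI := hT0p.isNilpotent; infer_instance
  have hcent : ∀ a ∈ T d, a ∈ Subgroup.centralizer (N : Set (G ⧸ V)) := by
    intro a ha
    have htop : (Subgroup.centralizer ({a} : Set (G ⧸ V))).subgroupOf N = ⊤ := by
      refine eq_top_of_forall_exists_sylow_le fun q hq => ?_
      haveI := Fact.mk hq
      obtain ⟨P, hPN, hPq, hPi, hAP⟩ := exists_invariant_sylow hA (Or.inl hsol) hcop q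
      have hPi' : ¬ q ∣ (P.subgroupOf N).index := hPi
      refine ⟨(hPq.comap_subtype (K := N)).toSylow hPi', fun z hz => ?_⟩
      refine Subgroup.mem_subgroupOf.mpr (Subgroup.mem_centralizer_singleton_iff.mpr ?_)
      by_cases hpq : p = q
      · subst hpq
        obtain ⟨j, hj⟩ := IsPGroup.iff_card.mp hPq
        rcases Nat.eq_zero_or_pos j with rfl | hj0
        · rw [pow_zero, Subgroup.card_eq_one] at hj
          have hz' : (z : G ⧸ V) ∈ P := hz
          rw [hj, Subgroup.mem_bot] at hz'
          rw [hz', one_mul, mul_one]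
        · exact absurd ((hj ▸ dvd_pow_self p hj0.ne').trans (Subgroup.card_dvd_of_le hPN))
            (not_dvd_card_pPrimeCore p (G ⧸ V))
      · refine (hρ (Quad.claim hp2 hpq d _ ρ P T le_rfl ?_ a ha (z : G ⧸ V) hz)).symm
        exact
          { hQ := hPq
            hT := fun i => by
              show (Ts (i + 1)).map _ ≤ _
              rw [hTs, Subgroup.map_commutator]
            hT0 := hT0p
            hTQ := hAP
            hA := by
              rintro _ ⟨x, hx, rfl⟩
              exact Subgroup.le_normalizer_map (QuotientGroup.mk' V) ⟨x, hSn d hx, rfl⟩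
            hcomm := by
              rintro _ ⟨x, hx, rfl⟩ _ ⟨y, hy, rfl⟩
              rw [← map_mul, ← map_mul, commutatorElement_eq_one_iff_mul_comm.mp (habel x hx y hy)]
            hquad := fun x hx y hy => by
              have h := congrArg φ (hquad x hx y hy)
              rwa [map_zero, map_mul, map_sub, map_sub, map_one] at h
            hkill := fun t ht => by
              have h := congrArg φ (hkill t ht)
              rwa [map_zero, map_dprod] at h }
    refine Subgroup.mem_centralizer_iff.mpr fun z hz => ?_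
    exact Subgroup.mem_centralizer_singleton_iff.mp ((Subgroup.subgroupOf_eq_top.mp htop) hz)
  intro x hx
  have h1 : piCore ({p}ᶜ)ᶜ (G ⧸ V) = ⊥ := by rw [compl_compl, ← pCore_eq_piCore, pCore_quotient_pCore]
  have h2 := centralizer_piCore_le (isPiSeparable_compl (isPiSeparable_of_isPSolvable
    (isPSolvable_quotient hs V))) h1
  rw [← pPrimeCore_eq_piCore] at h2
  have hxN := h2 (hcent _ ⟨x, hx, rfl⟩)
  obtain ⟨k, hk⟩ := hT0p ⟨_, ⟨x, (show Ts d ≤ Ts 0 from Quad.chain_antitone (fun i => (hTs i).le) d) hx, rfl⟩⟩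
  have hk' : (QuotientGroup.mk' V x) ^ p ^ k = 1 := congrArg Subtype.val hk
  have h3 : QuotientGroup.mk' V x = 1 := orderOf_eq_one_iff.mp (Nat.eq_one_of_dvd_coprimes
    ((card_pPrimeCore_coprime p (G ⧸ V)).symm.pow_left k) (orderOf_dvd_of_pow_eq_one hk')
    (Subgroup.orderOf_dvd_natCard _ hxN))
  exact (QuotientGroup.eq_one_iff x).mp h3

/-- The p-length is at most the derived length of a Sylow subgroup. -/
theorem pLengthLE_of_sylowDL (hp2 : p ≠ 2) : ∀ (d : ℕ) {G : Type u} [Group G] [Finite G], IsPSolvable p G →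
    SylowDL p d G → PLengthLE p d G := by
  intro d
  induction d with
  | zero =>
    intro G _ _ _ ⟨S, Ts, h0, _, hd⟩
    rw [pLengthLE_zero_iff, Nat.coprime_comm, hp.out.coprime_iff_not_dvd]
    intro hdvd
    refine S.not_dvd_index ?_
    rw [← h0, hd, Subgroup.index_bot]
    exact hdvd
  | succ d ih =>
    intro G _ _ hs hdl
    rw [← pLengthLE_quotient_pPrimeCore_iff, pLengthLE_succ_iff]
    have hs' := isPSolvable_quotient hs (pPrimeCore p G)
    have h0 := pPrimeCore_quotient_pPrimeCore p G
    refine pLengthLE_congr _ _ (pPrimePCore_eq_pCore h0).symm ?_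
    obtain ⟨S, Ts, hT0, hTs, hTd⟩ := hdl.quotient (pPrimeCore p G)
    have hle := last_le_pCore hp2 hs' h0 S Ts hT0 hTs hTd
    refine ih (isPSolvable_quotient hs' _) ⟨S.mapSurjective (QuotientGroup.mk'_surjective _),
      fun i => (Ts i).map (QuotientGroup.mk' (pCore p (G ⧸ pPrimeCore p G))), ?_, fun i => ?_, ?_⟩
    · beta_reduce; rw [Sylow.coe_mapSurjective, hT0]
    · beta_reduce; rw [hTs, Subgroup.map_commutator]
    · beta_reduce; rw [Subgroup.map_eq_bot_iff, QuotientGroup.ker_mk']
      exact hle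

end Cfsg.Agent.Core.HH
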