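/-
Core library, Hall–Higman: over two layers of the upper `p`-series the exponent drops, `p` odd.

Let a `p`-group `U` of exponent dividing `p^(n+1)` act faithfully with every `u` killed by `(X - 1)^(p^(n+1)-1)`
and normalise a `2`-group.  On each symplectic section the `p^n`-th powers are "small", so each of them
lies in every maximal abelian normal subgroup; hence they commute.  Two commuting such powers bound the degree
on the next layer by `2 p^n - 1`, which is below the exceptional degree of Theorem B.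
-/
import Cfsg.Agent.Core.HallHigman.QuadraticChain
import Cfsg.Agent.S0015
import Mathlib.LinearAlgebra.Eigenspace.Semisimple
import Mathlib.LinearAlgebra.Eigenspace.Pi

set_option autoImplicit false
set_option linter.style.haveILetI false
set_option linter.unusedSectionVars false
set_option maxSynthPendingDepth 4

namespace Cfsg.Agent.Core.HH.TwoLayer

open Module Cfsg
open scoped commutatorElement

universe u v

variable {p : ℕ} [hp : Fact p.Prime]

/-- If `x` has `p`-power order, every nontrivial power generates the subgroup of order `p`. -/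
theorem mem_zpowers_pow {G : Type*} [Group G] (x : G) {n : ℕ} (hx : x ^ p ^ (n + 1) = 1) {k : ℕ}
    (hk : x ^ k ≠ 1) : ∃ i ≤ n, x ^ p ^ i ∈ Subgroup.zpowers (x ^ k) ∧ p ^ i ∣ k := by
  have hk0 : k ≠ 0 := fun h => hk (by rw [h, pow_zero])
  obtain ⟨i, k', hk', rfl⟩ := Nat.exists_eq_pow_mul_and_not_dvd hk0 p hp.out.ne_one
  refine ⟨i, ?_, ?_, Dvd.intro k' rfl⟩
  · by_contra hcon
    exact hk (by rw [show i = (n + 1) + (i - (n + 1)) by omega, pow_add, mul_assoc, pow_mul, hx, one_pow])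
  · obtain ⟨l, hl⟩ : ∃ l, ((x ^ p ^ i) ^ k') ^ l = x ^ p ^ i := by
      refine exists_pow_eq_self_of_coprime ?_
      have hd : orderOf (x ^ p ^ i) ∣ p ^ (n + 1) := orderOf_dvd_of_pow_eq_one (by
        rw [← pow_mul, mul_comm, pow_mul, hx, one_pow])
      exact Nat.Coprime.coprime_dvd_right hd ((hp.out.coprime_iff_not_dvd.mpr hk').symm.pow_right _)
    rw [pow_mul]
    have := Subgroup.npow_mem_zpowers ((x ^ p ^ i) ^ k') l
    rwa [hl] at this

theorem sum_range_mul {A : Type*} [AddCommMonoid A] (f : ℕ → A) (d : ℕ) :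
    ∀ P, ∑ i ∈ Finset.range (d * P), f i = ∑ k ∈ Finset.range P, ∑ j ∈ Finset.range d, f (d * k + j) := by
  intro P
  induction P with
  | zero => simp
  | succ P ih => rw [Nat.mul_succ, Finset.sum_range_add, ih, Finset.sum_range_succ]

theorem eq_of_pow_two_modEq_one {m j : ℕ} (hj : j ≤ 2 * m) (hd : 2 ^ m + 1 ∣ 2 ^ j - 1) : j = 0 ∨ j = 2 * m := by
  by_contra hcon
  push Not at hcon
  rcases Nat.lt_or_ge m j with hmj | hmj
  · have h1 : 2 ^ m + 1 ∣ 2 ^ (j - m) + 1 := by
      have h2 : 2 ^ (j - m) + 1 + (2 ^ j - 1) = 2 ^ (j - m) * (2 ^ m + 1) := by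
        have : 2 ^ j = 2 ^ (j - m) * 2 ^ m := by rw [← pow_add, Nat.sub_add_cancel hmj.le]
        have := Nat.one_le_two_pow (n := j)
        rw [Nat.mul_add, mul_one]
        omega
      exact (Nat.dvd_add_left hd).mp (h2 ▸ Dvd.intro_left _ rfl)
    have h3 := Nat.le_of_dvd (by positivity) h1
    have h4 : 2 ^ (j - m) < 2 ^ m := Nat.pow_lt_pow_right (by norm_num) (by omega)
    omega
  · have h3 := Nat.le_of_dvd (by
      have : 2 ≤ 2 ^ j := Nat.le_self_pow hcon.1 2
      omega) hd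
    have h4 : 2 ^ j ≤ 2 ^ m := Nat.pow_le_pow_right (by norm_num) hmj
    have := Nat.one_le_two_pow (n := m)
    omega

/-- A group acting freely on the nonzero vectors of a subspace has order dividing their number. -/
theorem card_dvd_card_sub_one {L : Type*} [Group L] [Finite L] {R : Type*} [Ring R] {V : Type*} [AddCommGroup V]
    [Module R V] [Finite V] (ψ : L →* Module.End R V) (A : Submodule R V) (hinv : ∀ g, ∀ v ∈ A, ψ g v ∈ A)
    (hfree : ∀ g, g ≠ 1 → ∀ v ∈ A, ψ g v = v → v = 0) : Nat.card L ∣ Nat.card A - 1 := by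
  classical
  letI : MulAction L {v : A // v ≠ 0} :=
    { smul := fun g v => ⟨⟨ψ g (v.1 : V), hinv g _ v.1.2⟩, fun h => by
        have h1 : ψ g (v.1 : V) = 0 := congrArg Subtype.val h
        have h2 := congrArg (ψ g⁻¹) h1
        rw [map_zero, ← Module.End.mul_apply, ← map_mul, inv_mul_cancel, map_one, Module.End.one_apply] at h2
        exact v.2 (Subtype.ext h2)⟩
      one_smul := fun v => Subtype.ext (Subtype.ext (by
        show ψ 1 (v.1 : V) = _
        rw [map_one, Module.End.one_apply]))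
      mul_smul := fun g h v => Subtype.ext (Subtype.ext (by
        show ψ (g * h) (v.1 : V) = ψ g (ψ h (v.1 : V))
        rw [map_mul, Module.End.mul_apply])) }
  have hst : ∀ v : {v : A // v ≠ 0}, MulAction.stabilizer L v = ⊥ := fun v => by
    rw [eq_bot_iff]
    intro g hg
    rw [Subgroup.mem_bot]
    by_contra hg1
    have h1 : ψ g (v.1 : V) = v.1 := congrArg (fun w : {v : A // v ≠ 0} => (w.1 : V)) hg
    exact v.2 (Subtype.ext (hfree g hg1 _ v.1.2 h1))
  have h := Nat.card_congr (MulAction.selfEquivOrbitsQuotientProd hst)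
  rw [Nat.card_prod] at h
  have hc : Nat.card {v : A // v ≠ 0} = Nat.card A - 1 := by
    haveI : Fintype A := Fintype.ofFinite A
    rw [Nat.card_eq_fintype_card, Nat.card_eq_fintype_card, Fintype.card_subtype_compl, Fintype.card_subtype_eq]
  rw [← hc, h]
  exact Dvd.intro_left _ rfl

set_option maxHeartbeats 800000 in
/-- An element `y` of order `p` whose commutator space has dimension `2m`, `p ∣ 2^m + 1`, and is irreducible
under some `x` commuting with `y`, commutes with every abelian normal subgroup. -/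
theorem commute_of_normal_abelian {m : ℕ} (hpm : p ∣ 2 ^ m + 1) (hp2 : p ≠ 2) {G : Type*} [Group G] [Finite G]
    (hG : IsPGroup p G) {V : Type*} [AddCommGroup V] [Module (ZMod 2) V] [Finite V]
    (φ : G →* Module.End (ZMod 2) V) (hφ : Function.Injective φ) (B : Subgroup G) [hBn : B.Normal]
    (hB : ∀ a ∈ B, ∀ b ∈ B, a * b = b * a) {x y : G} (hy : y ^ p = 1) (hxy : x * y = y * x)
    (hcard : Nat.card (LinearMap.range (φ y - 1)) = 2 ^ (2 * m))
    (hirr : ∀ A' : Submodule (ZMod 2) V, A' ≤ LinearMap.range (φ y - 1) → (∀ v ∈ A', φ x v ∈ A') →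
      A' = ⊥ ∨ A' = LinearMap.range (φ y - 1)) : ∀ b ∈ B, b * y = y * b := by
  classical
  by_contra hcon
  push Not at hcon
  obtain ⟨b₀, hb₀, hb₀y⟩ := hcon
  have hmem : ∀ b ∈ B, b * y * b⁻¹ * y⁻¹ ∈ B := fun b hb => by
    rw [mul_assoc, mul_assoc, ← mul_assoc y b⁻¹]
    exact B.mul_mem hb (hBn.conj_mem _ (B.inv_mem hb) y)
  let f : B →* G :=
    { toFun := fun b => (b : G) * y * (b : G)⁻¹ * y⁻¹
      map_one' := by simp
      map_mul' := fun a b => by
        have h := hB _ a.2 _ (hmem b b.2)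
        have h' := hB _ (hmem a a.2) _ (hmem b b.2)
        rw [h']
        calc ((a * b : B) : G) * y * ((a * b : B) : G)⁻¹ * y⁻¹
            = (a : G) * ((b : G) * y * (b : G)⁻¹ * y⁻¹) * (y * (a : G)⁻¹ * y⁻¹) := by rw [Subgroup.coe_mul]; group
          _ = ((b : G) * y * (b : G)⁻¹ * y⁻¹) * (a : G) * (y * (a : G)⁻¹ * y⁻¹) := by rw [h]
          _ = _ := by group }
  let J : Subgroup G :=
    { carrier := {c | c ∈ f.range ∧ c ^ p = 1}
      one_mem' := ⟨one_mem _, one_pow _⟩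
      mul_mem' := fun {a b} ha hb => ⟨mul_mem ha.1 hb.1, by
        obtain ⟨a', rfl⟩ := ha.1
        obtain ⟨b', rfl⟩ := hb.1
        rw [(show Commute (f a') (f b') from hB _ (hmem a' a'.2) _ (hmem b' b'.2)).mul_pow, ha.2, hb.2, one_mul]⟩
      inv_mem' := fun {a} ha => ⟨inv_mem ha.1, by rw [inv_pow, ha.2, inv_one]⟩ }
  have hnorm : ∀ t : G, t * y = y * t → t ∈ Subgroup.normalizer (J : Set G) := by
    have key : ∀ t : G, t * y = y * t → ∀ c ∈ J, t * c * t⁻¹ ∈ J := by
      rintro t ht c ⟨⟨b, rfl⟩, hc⟩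
      refine ⟨⟨⟨t * b * t⁻¹, hBn.conj_mem _ b.2 t⟩, ?_⟩, by rw [conj_pow, hc, mul_one, mul_inv_cancel]⟩
      show t * (b : G) * t⁻¹ * y * (t * (b : G) * t⁻¹)⁻¹ * y⁻¹ = t * ((b : G) * y * (b : G)⁻¹ * y⁻¹) * t⁻¹
      have h1 : t⁻¹ * y * t = y := by rw [mul_assoc, ← ht, inv_mul_cancel_left]
      calc t * (b : G) * t⁻¹ * y * (t * (b : G) * t⁻¹)⁻¹ * y⁻¹
          = t * (b : G) * (t⁻¹ * y * t) * (b : G)⁻¹ * (t⁻¹ * y * t)⁻¹ * t⁻¹ := by group
        _ = _ := by rw [h1]; group
    intro t ht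
    refine Subgroup.mem_normalizer_iff.mpr fun c => ⟨key t ht c, fun h => ?_⟩
    have h' := key t⁻¹ (Commute.inv_left (show Commute t y from ht)).eq _ h
    simpa [mul_assoc] using h'
  have hJne : J ≠ ⊥ := by
    intro hJ
    have hne : f ⟨b₀, hb₀⟩ ≠ 1 := fun h => hb₀y (by
      have h1 : b₀ * y * b₀⁻¹ * y⁻¹ = 1 := h
      rwa [← commutatorElement_def, commutatorElement_eq_one_iff_mul_comm] at h1)
    haveI : Nontrivial f.range := ⟨⟨⟨_, ⟨_, rfl⟩⟩, 1, fun h => hne (congrArg Subtype.val h)⟩⟩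
    obtain ⟨k, hk⟩ := IsPGroup.iff_card.mp (hG.to_subgroup f.range)
    have hk0 : k ≠ 0 := fun h => by
      have := Finite.one_lt_card (α := f.range)
      rw [hk, h, pow_zero] at this
      exact lt_irrefl _ this
    obtain ⟨⟨c, hc⟩, hco⟩ := exists_prime_orderOf_dvd_card' (G := f.range) p (hk ▸ dvd_pow_self p hk0)
    rw [Subgroup.orderOf_mk] at hco
    have : c ∈ J := ⟨hc, hco ▸ pow_orderOf_eq_one c⟩
    rw [hJ, Subgroup.mem_bot] at this
    rw [this, orderOf_one] at hco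
    exact hp.out.one_lt.ne hco
  obtain ⟨c, hcJ, hc1, hcN⟩ : ∃ c ∈ J, c ≠ 1 ∧ ∀ t ∈ Subgroup.normalizer (J : Set G), t * c = c * t := by
    set W := Subgroup.normalizer (J : Set G)
    haveI : (J.subgroupOf W).Normal := Subgroup.normal_in_normalizer
    haveI := (hG.to_subgroup W).isNilpotent
    obtain ⟨c, h1, h2, h3⟩ := OddLocal.exists_ne_one_mem_center_of_normal (J.subgroupOf W) (by
      rw [ne_eq, Subgroup.subgroupOf_eq_bot, disjoint_iff, inf_eq_left.mpr Subgroup.le_normalizer]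
      exact hJne)
    exact ⟨c, h1, fun h => h2 (Subtype.ext h), fun t ht =>
      congrArg Subtype.val (Subgroup.mem_center_iff.mp h3 ⟨t, ht⟩)⟩
  have hxc : x * c = c * x := hcN x (hnorm x hxy)
  have hyc : y * c = c * y := hcN y (hnorm y rfl)
  obtain ⟨⟨⟨b, hb⟩, hbc⟩, hcp⟩ := hcJ
  change b * y * b⁻¹ * y⁻¹ = c at hbc
  have hbcc : b * c = c * b := hB b hb c (hbc ▸ hmem b hb)
  have hby : ∀ i : ℕ, b ^ i * y = c ^ i * y * b ^ i := by
    intro i
    induction i with
    | zero => simp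
    | succ i ih =>
      calc b ^ (i + 1) * y = b * (b ^ i * y) := by rw [pow_succ', mul_assoc]
        _ = b * c ^ i * y * b ^ i := by rw [ih]; group
        _ = c ^ i * (b * y) * b ^ i := by rw [(show Commute b c from hbcc).pow_right i |>.eq]; group
        _ = c ^ i * (c * y * b) * b ^ i := by rw [← hbc]; group
        _ = c ^ (i + 1) * y * b ^ (i + 1) := by rw [pow_succ c, pow_succ' b]; group
  -- the fixed-point free part of `c`
  obtain ⟨h, hh⟩ := hp.out.odd_of_ne_two hp2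
  have hodd : ∀ v : V, p • v = v := fun v => by
    rw [hh, add_smul, mul_smul, one_smul, two_nsmul, ZModModule.add_self, zero_add]
  let Nc : Module.End (ZMod 2) V := ∑ i ∈ Finset.range p, φ c ^ i
  have hcNc : φ c * Nc = Nc := by
    have h1 := mul_geom_sum (φ c) p
    rw [← map_pow, hcp, map_one, sub_self, sub_mul, one_mul, sub_eq_zero] at h1
    exact h1
  have hNN : Nc * Nc = Nc := by
    have h1 : ∀ i, φ c ^ i * Nc = Nc := by
      intro i
      induction i with
      | zero => rw [pow_zero, one_mul]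
      | succ i ih => rw [pow_succ, mul_assoc, hcNc, ih]
    refine LinearMap.ext fun v => ?_
    conv_lhs => rw [show Nc * Nc = ∑ i ∈ Finset.range p, φ c ^ i * Nc from Finset.sum_mul ..]
    rw [Finset.sum_congr rfl (fun i _ => h1 i), Finset.sum_const, Finset.card_range, LinearMap.smul_apply, hodd]
  let Vc : Submodule (ZMod 2) V := LinearMap.ker Nc
  have hVc : ∀ v, v ∈ Vc ↔ Nc v = 0 := fun v => LinearMap.mem_ker
  have hinv : ∀ g : G, g * c = c * g → ∀ v ∈ Vc, φ g v ∈ Vc := fun g hg v hv => by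
    rw [hVc] at hv ⊢
    have h1 : Nc * φ g = φ g * Nc := by
      simp only [Nc, Finset.sum_mul, Finset.mul_sum, ← map_pow, ← map_mul]
      exact Finset.sum_congr rfl fun i _ => by rw [((show Commute g c from hg).pow_right i).eq]
    rw [← Module.End.mul_apply, h1, Module.End.mul_apply, hv, map_zero]
  have hfix : ∀ v ∈ Vc, φ c v = v → v = 0 := fun v hv hcv => by
    have h1 : ∀ i, (φ c ^ i) v = v := by
      intro i
      induction i with
      | zero => rfl
      | succ i ih => rw [pow_succ, Module.End.mul_apply, hcv, ih]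
    rw [hVc] at hv
    simp only [Nc, LinearMap.sum_apply, h1, Finset.sum_const, Finset.card_range, hodd] at hv
    exact hv
  have hsum : ∀ d : ℕ, ¬ p ∣ d → ∀ v ∈ Vc, (∑ k ∈ Finset.range p, φ (c ^ d) ^ k) v = 0 := by
    intro d hd v hv
    set w := (∑ k ∈ Finset.range p, φ (c ^ d) ^ k) v with hw
    have hwV : w ∈ Vc := by
      rw [hw, LinearMap.sum_apply]
      refine Vc.sum_mem fun k _ => ?_
      rw [← map_pow]
      exact hinv _ ((Commute.refl c).pow_left d |>.pow_left k).eq v hv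
    have hdw : φ (c ^ d) w = w := by
      have h1 := mul_geom_sum (φ (c ^ d)) p
      rw [← map_pow _ (c ^ d) p, ← pow_mul, mul_comm d, pow_mul, hcp, one_pow, map_one, sub_self, sub_mul, one_mul,
        sub_eq_zero] at h1
      rw [hw, ← Module.End.mul_apply, h1]
    obtain ⟨k, hk⟩ : ∃ k, (c ^ d) ^ k = c := exists_pow_eq_self_of_coprime (by
      rw [orderOf_eq_prime hcp hc1]; exact (hp.out.coprime_iff_not_dvd.mpr hd).symm)
    refine hfix w hwV ?_
    have h1 : ∀ k, φ ((c ^ d) ^ k) w = w := by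
      intro k
      induction k with
      | zero => rw [pow_zero, map_one]; rfl
      | succ k ih => rw [pow_succ, map_mul, Module.End.mul_apply, hdw, ih]
    rw [← hk]; exact h1 k
  let E0 : Submodule (ZMod 2) V := Vc ⊓ LinearMap.ker (φ y - 1)
  have hE0 : ∀ v, v ∈ E0 ↔ v ∈ Vc ∧ φ y v = v := fun v => by
    simp only [E0, Submodule.mem_inf, LinearMap.mem_ker, LinearMap.sub_apply, Module.End.one_apply, sub_eq_zero]
  let N : ℕ → Module.End (ZMod 2) V := fun i => ∑ k ∈ Finset.range p, φ (c ^ i * y) ^ k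
  have hciy : ∀ i : ℕ, Commute (c ^ i) y := fun i => Commute.pow_left (show Commute c y from hyc.symm) i
  have hbV : ∀ i : ℕ, ∀ v ∈ Vc, φ (b ^ i) v ∈ Vc := fun i v hv =>
    hinv _ ((show Commute b c from hbcc).pow_left i).eq v hv
  have hNsame : ∀ (i : ℕ) v, φ (c ^ i * y) v = v → N i v = v := fun i v hv => by
    have h1 : ∀ k, (φ (c ^ i * y) ^ k) v = v := by
      intro k
      induction k with
      | zero => rfl
      | succ k ih => rw [pow_succ, Module.End.mul_apply, hv, ih]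
    simp only [N, LinearMap.sum_apply, h1, Finset.sum_const, Finset.card_range, hodd]
  have hNdiff : ∀ i j : ℕ, i < p → j < p → i ≠ j → ∀ v ∈ Vc, φ (c ^ i * y) v = v → N j v = 0 := by
    intro i j hi hj hij v hv hfixv
    set d := j + p - i with hd
    have hdp : ¬ p ∣ d := by
      rintro ⟨k, hk⟩
      rcases k with _ | _ | k
      · omega
      · omega
      · rw [Nat.mul_succ, Nat.mul_succ] at hk; omega
    have hcd : c ^ j = c ^ d * c ^ i := by
      rw [← pow_add, hd, Nat.sub_add_cancel (by omega), pow_add, hcp, mul_one]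
    have h1 : ∀ k, (φ (c ^ i * y) ^ k) v = v := by
      intro k
      induction k with
      | zero => rfl
      | succ k ih => rw [pow_succ, Module.End.mul_apply, hfixv, ih]
    rw [← hsum d hdp v hv]
    simp only [N, LinearMap.sum_apply]
    refine Finset.sum_congr rfl fun k _ => ?_
    rw [← map_pow, ← map_pow, hcd, mul_assoc,
      ((show Commute (c ^ d) (c ^ i * y) from (Commute.pow_pow_self c d i).mul_right (hciy d))).mul_pow, map_mul,
      Module.End.mul_apply, map_pow φ (c ^ i * y), h1]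
  let Ψ : (Fin p → E0) → Vc := fun e => ⟨∑ i : Fin p, φ (b ^ (i : ℕ)) (e i : V),
    Vc.sum_mem fun i _ => hbV _ _ ((hE0 _).mp (e i).2).1⟩
  have hbfix : ∀ (i : ℕ) v, φ y v = v → φ (c ^ i * y) (φ (b ^ i) v) = φ (b ^ i) v := fun i v hv => by
    rw [← Module.End.mul_apply, ← map_mul, ← hby, map_mul, Module.End.mul_apply, hv]
  have hΨinj : Function.Injective Ψ := by
    intro e e' he
    funext j
    have key : ∀ e : Fin p → E0, N (j : ℕ) (Ψ e : V) = φ (b ^ (j : ℕ)) (e j : V) := by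
      intro e
      show N (j : ℕ) (∑ i : Fin p, φ (b ^ (i : ℕ)) (e i : V)) = _
      rw [map_sum, Finset.sum_eq_single j (fun i _ hij => ?_) (by simp)]
      · exact hNsame _ _ (hbfix _ _ ((hE0 _).mp (e j).2).2)
      · exact hNdiff i j i.2 j.2 (fun h => hij (Fin.ext h)) _ (hbV _ _ ((hE0 _).mp (e i).2).1)
          (hbfix _ _ ((hE0 _).mp (e i).2).2)
    have h1 : φ (b ^ (j : ℕ)) (e j : V) = φ (b ^ (j : ℕ)) (e' j : V) := by rw [← key, ← key, he]
    have h2 := congrArg (φ (b ^ (j : ℕ))⁻¹) h1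
    rw [← Module.End.mul_apply, ← Module.End.mul_apply, ← map_mul, inv_mul_cancel, map_one] at h2
    exact Subtype.ext h2
  have hΨsurj : Function.Surjective Ψ := by
    intro v
    have hw : ∀ i : ℕ, φ (b ^ i)⁻¹ (N i (v : V)) ∈ E0 := by
      intro i
      have hfx : φ (c ^ i * y) (N i (v : V)) = N i (v : V) := by
        have h1 := mul_geom_sum (φ (c ^ i * y)) p
        rw [← map_pow, (hciy i).mul_pow, hy, mul_one, ← pow_mul, mul_comm i, pow_mul, hcp, one_pow, map_one,
          sub_self, sub_mul, one_mul, sub_eq_zero] at h1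
        rw [← Module.End.mul_apply, h1]
      refine (hE0 _).mpr ⟨hinv _ ((show Commute b c from hbcc).pow_left i).inv_left.eq _ ?_, ?_⟩
      · simp only [N, LinearMap.sum_apply]
        refine Vc.sum_mem fun k _ => ?_
        rw [← map_pow]
        exact hinv _ ((((Commute.refl c).pow_left i).mul_left (show Commute y c from hyc)).pow_left k).eq _ v.2
      · rw [← Module.End.mul_apply, ← map_mul, show y * (b ^ i)⁻¹ = (b ^ i)⁻¹ * (c ^ i * y) by
          rw [eq_inv_mul_iff_mul_eq, ← mul_assoc, hby, mul_inv_cancel_right], map_mul, Module.End.mul_apply, hfx]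
    refine ⟨fun i => ⟨_, hw i⟩, Subtype.ext ?_⟩
    show ∑ i : Fin p, φ (b ^ (i : ℕ)) (φ (b ^ (i : ℕ))⁻¹ (N i (v : V))) = v
    simp only [← Module.End.mul_apply (φ (b ^ (_ : ℕ))), ← map_mul, mul_inv_cancel, map_one, Module.End.one_apply]
    rw [Fin.sum_univ_eq_sum_range fun i => N i (v : V)]
    simp only [N, LinearMap.sum_apply]
    rw [Finset.sum_comm, Finset.sum_eq_single 0 (fun k hk hk0 => ?_) (by simp [hp.out.pos])]
    · simp [hodd]
    · have hpk : ¬ p ∣ k := Nat.not_dvd_of_pos_of_lt (Nat.pos_of_ne_zero hk0) (Finset.mem_range.mp hk)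
      have hterm : ∀ i, (φ (c ^ i * y) ^ k) (v : V) = φ (y ^ k) ((φ (c ^ k) ^ i) (v : V)) := fun i => by
        rw [← map_pow, ← map_pow, (hciy i).mul_pow, ((hciy i).pow_pow k k).eq, map_mul, Module.End.mul_apply,
          ← pow_mul, ← pow_mul, mul_comm k i]
      simp only [hterm, ← map_sum]
      rw [← LinearMap.sum_apply, hsum k hpk _ v.2, map_zero]
  have hfinE := Module.natCard_eq_pow_finrank (K := ZMod 2) (V := E0)
  have hfinV := Module.natCard_eq_pow_finrank (K := ZMod 2) (V := Vc)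
  rw [Nat.card_zmod] at hfinE hfinV
  set e := finrank (ZMod 2) E0
  have hVe : finrank (ZMod 2) Vc = e * p := by
    have h1 := Nat.card_congr (Equiv.ofBijective Ψ ⟨hΨinj, hΨsurj⟩)
    rw [Nat.card_fun, Nat.card_fin, hfinE, hfinV, ← pow_mul] at h1
    exact (Nat.pow_right_injective le_rfl h1).symm
  -- compare with the commutator space
  let Ac : Submodule (ZMod 2) V := Vc.map (φ y - 1)
  have hrk : finrank (ZMod 2) Ac + e = e * p := by
    rw [← hVe, ← LinearMap.finrank_range_add_finrank_ker ((φ y - 1).domRestrict Vc), LinearMap.range_domRestrict]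
    congr 1
    refine (LinearEquiv.finrank_eq ?_).symm
    refine (LinearEquiv.ofEq _ (Submodule.comap Vc.subtype E0) ?_).trans (Submodule.comapSubtypeEquivOfLe inf_le_left)
    ext v
    simp [E0]
  have hVne : Vc ≠ ⊥ := fun h0 => by
    have h1 : Nc = 1 := LinearMap.ext fun v => by
      have h2 : v - Nc v ∈ Vc := by
        rw [hVc, map_sub, ← Module.End.mul_apply Nc Nc, hNN, sub_self]
      rw [h0, Submodule.mem_bot, sub_eq_zero] at h2
      exact h2.symm
    refine hc1 (hφ ?_)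
    rw [map_one]
    rw [h1, mul_one] at hcNc
    exact hcNc
  have he0 : 0 < e := by
    rcases Nat.eq_zero_or_pos e with h0 | h0
    · rw [h0, zero_mul] at hVe
      exact absurd (Submodule.finrank_eq_zero.mp hVe) hVne
    · exact h0
  have hAle : Ac ≤ LinearMap.range (φ y - 1) := LinearMap.map_le_range
  rcases hirr Ac hAle (by
    rintro _ ⟨v, hv, rfl⟩
    refine ⟨φ x v, hinv x hxc v hv, ?_⟩
    simp only [LinearMap.sub_apply, Module.End.one_apply, map_sub, ← Module.End.mul_apply, ← map_mul, hxy, one_mul]) with hA | hA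
  · rw [hA, finrank_bot, zero_add] at hrk
    have := hp.out.two_le
    nlinarith
  · have h2 : finrank (ZMod 2) Ac = 2 * m := by
      have := Module.natCard_eq_pow_finrank (K := ZMod 2) (V := Ac)
      rw [Nat.card_zmod] at this
      rw [hA] at this ⊢
      rw [hcard] at this
      exact (Nat.pow_right_injective le_rfl this).symm
    have hem : m = e * h := by
      rw [h2, hh] at hrk
      nlinarith
    -- `c` has no fixed points on `E0`
    have hdvd : p ∣ 2 ^ e - 1 := by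
      have h3 := card_dvd_card_sub_one (φ.comp (Subgroup.zpowers c).subtype) E0 (fun g v hv => by
        obtain ⟨k, hk⟩ := (isOfFinOrder_of_finite c).mem_powers_iff_mem_zpowers.mpr g.2
        change c ^ k = (g : G) at hk
        show φ (g : G) v ∈ E0
        rw [← hk]
        refine (hE0 _).mpr ⟨hinv _ ((Commute.refl c).pow_left k).eq v ((hE0 v).mp hv).1, ?_⟩
        rw [← Module.End.mul_apply, ← map_mul, ← (hciy k).eq, map_mul, Module.End.mul_apply, ((hE0 v).mp hv).2])
        (fun g hg v hv hgv => by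
          obtain ⟨k, hk⟩ := (isOfFinOrder_of_finite c).mem_powers_iff_mem_zpowers.mpr g.2
          change c ^ k = (g : G) at hk
          change φ (g : G) v = v at hgv
          rw [← hk] at hgv
          have hpk : ¬ p ∣ k := fun hd => hg (Subtype.ext (by
            obtain ⟨l, rfl⟩ := hd
            rw [← hk, pow_mul, hcp, one_pow]; rfl))
          have h4 := hsum k hpk v ((hE0 v).mp hv).1
          have h5 : ∀ i, (φ (c ^ k) ^ i) v = v := by
            intro i
            induction i with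
            | zero => rfl
            | succ i ih => rw [pow_succ, Module.End.mul_apply, hgv, ih]
          rw [LinearMap.sum_apply, Finset.sum_congr rfl (fun i _ => h5 i), Finset.sum_const, Finset.card_range, hodd] at h4
          exact h4)
      rwa [Nat.card_zpowers, orderOf_eq_prime hcp hc1, hfinE] at h3
    have hdvd' : p ∣ 2 ^ m - 1 := by
      rw [hem, pow_mul]
      exact hdvd.trans (Nat.sub_one_dvd_pow_sub_one _ _)
    have h2dvd : p ∣ 2 := by
      have h3 := Nat.dvd_sub hpm hdvd'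
      have := Nat.one_le_two_pow (n := m)
      rwa [show 2 ^ m + 1 - (2 ^ m - 1) = 2 by omega] at h3
    exact hp2 ((Nat.prime_dvd_prime_iff_eq hp.out Nat.prime_two).mp h2dvd)

/-- The component of a `2`-group on which an element of exceptional degree acts. -/
theorem exceptional_component {K : Type u} [Field K] [IsAlgClosed K] [CharP K p] (hp2 : p ≠ 2)
    {V : Type v} [AddCommGroup V] [Module K V] [FiniteDimensional K V] {Q : Type*} [Group Q] [Finite Q]
    (hQ : IsPGroup 2 Q) (ρ : Q →* Module.End K V) (hnt : ∃ x, ρ x ≠ 1) (X : Module.End K V) (σ : MulAut Q) {n : ℕ}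
    (hX : X ^ (p ^ (n + 1)) = 1) (hXρ : ∀ x, X * ρ x = ρ (σ x) * X) (hσ : σ ^ (p ^ (n + 1)) = 1)
    (hfix : ∀ a b : Q, (σ ^ (p ^ n)) ⁅a, b⁆ = ⁅a, b⁆)
    (hgen : Subgroup.closure (Set.range fun x => (σ ^ (p ^ n)) x * x⁻¹) = ⊤)
    (hk : (X - 1) ^ (p ^ (n + 1) - 1) = 0) :
    ∃ (W : Submodule K V) (a m : ℕ), a ≤ n ∧ 2 ^ m + 1 = p ^ (n + 1 - a) ∧ W ≠ ⊥ ∧
      (∀ x, ∀ w ∈ W, ρ x w ∈ W) ∧
      (∀ r : Q, (∀ x, ∀ w ∈ W, ρ r (ρ x w) = ρ x (ρ r w)) → ∃ c : K, ∀ w ∈ W, ρ r w = c • w) ∧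
      Nat.card {x : Q // ∃ c : K, ∀ w ∈ W, ρ x w = c • w} * 2 ^ (2 * m) = Nat.card Q := by
  classical
  haveI : Fact (Nat.Prime 2) := ⟨Nat.prime_two⟩
  have hqK : ((2 : ℕ) : K) ≠ 0 := fun h => hp2
    ((Nat.prime_dvd_prime_iff_eq hp.out Nat.prime_two).mp ((CharP.cast_eq_zero_iff K p 2).mp h))
  obtain ⟨W, a, ha, hWne, hWd, hWinv, -, hind, -, hscal, hcase⟩ :=
    exists_component hQ hqK ρ hnt X σ (n := n + 1) hp2 (Nat.succ_pos n) hX hXρ hσ hfix hgen
  set d := p ^ a with hd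
  set k := p ^ (n + 1) - 1 with hkdef
  have hkn : k < p ^ (n + 1) := Nat.sub_lt (pow_pos hp.out.pos _) one_pos
  have hex : ∃ r, ∀ w ∈ W, (((X ^ d - 1 : Module.End K V)) ^ r : Module.End K V) w = 0 :=
    ⟨p ^ (n + 1 - a), fun w _ => by
      rw [sub_one_pow_char_pow (K := K), ← pow_mul, hd, ← pow_add, Nat.add_sub_cancel' ha, hX, sub_self,
        LinearMap.zero_apply]⟩
  obtain ⟨r1, hr1, hr1m⟩ : ∃ r, (∀ w ∈ W, (((X ^ d - 1 : Module.End K V)) ^ r : Module.End K V) w = 0) ∧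
      ∀ r' < r, ¬ ∀ w ∈ W, (((X ^ d - 1 : Module.End K V)) ^ r' : Module.End K V) w = 0 :=
    ⟨Nat.find hex, Nat.find_spec hex, fun r' h => Nat.find_min hex h⟩
  have hr1pos : 0 < r1 := by
    rcases Nat.eq_zero_or_pos r1 with rfl | h
    · exact absurd (Submodule.eq_bot_iff _ |>.mpr fun w hw => by simpa using hr1 w hw) hWne
    · exact h
  have hWpow : ∀ r, ∀ w ∈ W, (((X ^ d - 1 : Module.End K V)) ^ r : Module.End K V) w ∈ W := by
    intro r
    induction r with
    | zero => intro w hw; simpa using hw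
    | succ r ih =>
      intro w hw
      rw [pow_succ', Module.End.mul_apply, LinearMap.sub_apply, Module.End.one_apply]
      exact W.sub_mem (hWd _ (ih w hw)) (ih w hw)
  have hlow : d * r1 ≤ k := by
    by_contra hlt
    obtain ⟨w, hw, hwne⟩ : ∃ w ∈ W, (((X ^ d - 1 : Module.End K V)) ^ (r1 - 1) : Module.End K V) w ≠ 0 := by
      have := hr1m (r1 - 1) (by omega)
      simpa only [not_forall, exists_prop] using this
    have h0 : ((X - 1) ^ ((d - 1) + d * (r1 - 1))) w = 0 := by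
      have he : (d - 1) + d * (r1 - 1) = k + ((d - 1) + d * (r1 - 1) - k) := by
        have hd1 : 1 ≤ d := Nat.one_le_pow _ _ hp.out.pos
        have : d * r1 = d * (r1 - 1) + d := by
          conv_lhs => rw [show r1 = (r1 - 1) + 1 by omega, Nat.mul_succ]
        omega
      rw [he, pow_add, Module.End.mul_apply, hk, LinearMap.zero_apply]
    rw [pow_add, pow_mul, hd, sub_one_pow_char_pow (K := K), sub_one_pow_eq_geom_sum (K := K), ← hd,
      Module.End.mul_apply, LinearMap.sum_apply] at h0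
    exact one_ne_zero (hind _ (hWpow _ w hw) hwne (fun _ => (1 : K)) (by simpa using h0) 0 (pow_pos hp.out.pos a))
  rcases hcase with rfl | ⟨han, -, N, e, hN2, hNe, hidx, u, hu, hcount, htrans⟩
  · have := Nat.le_mul_of_pos_right d hr1pos
    omega
  set P := p ^ (n + 1 - a) with hP
  have hdP : d * P = p ^ (n + 1) := by rw [hd, hP, ← pow_add, Nat.add_sub_cancel' ha]
  have hr1P : r1 < P := by
    by_contra hle
    have := Nat.mul_le_mul_left d (not_lt.mp hle)
    omega
  have hu1 : (u - 1) ^ r1 = 0 := by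
    have := htrans ((Polynomial.X - 1) ^ r1) (fun w hw => by simpa using hr1 w hw)
    simpa using this
  have hexu : ∃ r, (u - 1) ^ r = 0 := ⟨r1, hu1⟩
  have hrN : Nat.find hexu ≤ N := by
    refine Nat.find_min' hexu (LinearMap.ext fun v => ?_)
    have h := Module.End.ker_pow_le_ker_pow_finrank (u - 1) r1 (show v ∈ LinearMap.ker ((u - 1) ^ r1) by simp [hu1])
    rw [Module.finrank_pi, Fintype.card_fin] at h
    exact h
  have hcent : cent (u - 1) = cent u := by
    ext S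
    rw [mem_cent, mem_cent, mul_sub, sub_mul, mul_one, one_mul, sub_left_inj]
  have hsq := sq_finrank_le_of_nilpotent N (u - 1) (Nat.find hexu)
    (by rw [Module.finrank_pi, Fintype.card_fin]) (Nat.find_spec hexu)
  rw [hcent] at hsq
  have hrle : Nat.find hexu ≤ r1 := Nat.find_min' hexu hu1
  obtain ⟨hNP, -⟩ := hh_arith hN2 hrN (lt_of_le_of_lt hrle hr1P) hcount hsq
  obtain ⟨m, -, hm⟩ := (Nat.dvd_prime_pow Nat.prime_two).mp (hNe ▸ dvd_pow_self N two_ne_zero : N ∣ 2 ^ e)
  refine ⟨W, a, m, by omega, by rw [← hm, hNP], hWne, hWinv, hscal, ?_⟩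
  rw [← hidx, hm, ← pow_mul, mul_comm m]

/-- The `p^n`-th power centralises an abelian subgroup it normalises, and any such `q`-group with `q` odd. -/
theorem centralizes_of_abelian_or_odd {K : Type u} [Field K] [IsAlgClosed K] [CharP K p] (hp2 : p ≠ 2)
    {V : Type v} [AddCommGroup V] [Module K V] [FiniteDimensional K V] {H : Type*} [Group H] [Finite H]
    (ρ : H →* Module.End K V) (hρ : Function.Injective ρ) {q : ℕ} [hq : Fact q.Prime] (hpq : p ≠ q)
    (x : H) {n : ℕ} (hx : x ^ (p ^ (n + 1)) = 1) (hk : (ρ x - 1) ^ (p ^ (n + 1) - 1) = 0) (N : Subgroup H)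
    (hN : IsPGroup q N) (hxN : x ∈ Subgroup.normalizer (N : Set H))
    (h : (∀ a ∈ N, ∀ b ∈ N, a * b = b * a) ∨ q ≠ 2) : x ^ p ^ n ∈ Subgroup.centralizer (N : Set H) := by
  by_contra hy
  obtain ⟨S, σ, hSN, hσ, hσn, hfix, hgen, hyS⟩ := exists_minimal_sub hpq x hx (Nat.succ_pos n) N hN hxN hy
  have hSne : ∃ s : S, (ρ.comp S.subtype) s ≠ 1 := by
    by_contra hall
    push Not at hall
    refine hyS (Subgroup.mem_centralizer_iff.mpr fun s hs => ?_)
    have h1 : ρ s = ρ 1 := by rw [map_one]; exact hall ⟨s, hs⟩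
    rw [hρ h1, one_mul, mul_one]
  rcases degree_cases (hN.to_le hSN) hpq (ρ.comp S.subtype) hSne (ρ x) σ (n := n + 1) (Nat.succ_pos n)
    (by rw [← map_pow, hx, map_one]) (fun s => by
      simp only [MonoidHom.comp_apply, Subgroup.coe_subtype, hσ, ← map_mul]; group) hσn hfix hgen _ hk with h' | h'
  · have := Nat.sub_lt (pow_pos hp.out.pos (n + 1)) one_pos
    omega
  · obtain ⟨a, m, han, hm, hpm, ⟨s, t, hst⟩, -⟩ := h'
    rcases h with h | h
    · exact hst (Subtype.ext (h s (hSN s.2) t (hSN t.2)))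
    · exact h (exception_odd hp2 (by omega) hm hq.out hpm).1

/-- An element `y` of order dividing `p` that is the `p^n`-th power of some `T` of exceptional degree. -/
def Exc {K : Type u} [Field K] {M : Type v} [AddCommGroup M] [Module K M] {H : Type*} [Group H]
    (p : ℕ) (ρ : H →* Module.End K M) (U D : Subgroup H) (y : H) : Prop :=
  (∀ d ∈ D, y * d = d * y) ∧ ∃ T ∈ U, ∃ n : ℕ, T ^ p ^ (n + 1) = 1 ∧ T ^ p ^ n = y ∧
    (ρ T - 1) ^ (p ^ (n + 1) - 1) = 0

set_option maxHeartbeats 800000 in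
/-- On a symplectic section the exceptional elements commute. -/
theorem section_commute {K : Type u} [Field K] [IsAlgClosed K] [CharP K p] (hp2 : p ≠ 2) {M : Type v}
    [AddCommGroup M] [Module K M] [FiniteDimensional K M] {H : Type*} [Group H] [Finite H]
    (ρ : H →* Module.End K M) {U Q D : Subgroup H} (hU : IsPGroup p U)
    (hUQ : U ≤ Subgroup.normalizer (Q : Set H)) (hQ : IsPGroup 2 Q) (hDQ : D ≤ Q)
    (hDscal : ∀ d ∈ D, ∃ c : K, ρ d = c • 1) (hDc : ∀ d ∈ D, ∀ g ∈ Q, d * g = g * d)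
    (hsq : ∀ g ∈ Q, g ^ 2 ∈ D) (hcm : ∀ g ∈ Q, ∀ h ∈ Q, g * h * g⁻¹ * h⁻¹ ∈ D)
    {y y' : H} (hy : Exc p ρ U D y) (hy' : Exc p ρ U D y') :
    ∀ g ∈ Q, ⁅y, y'⁆ * g * ⁅y, y'⁆⁻¹ * g⁻¹ ∈ Quad.czS ρ (Q : Set H) := by
  classical
  haveI : Fact (Nat.Prime 2) := ⟨Nat.prime_two⟩
  have hUy : ∀ {y : H}, Exc p ρ U D y → y ∈ U := fun {y} ⟨_, T, hT, n, _, hTy, _⟩ => hTy ▸ U.pow_mem hT _
  have hDcz : ∀ d ∈ D, d ∈ Quad.czS ρ (Q : Set H) := fun d hd => (Quad.mem_czS ρ).mpr fun s hs => by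
    rw [hDc d hd s hs]
  let Zs : Subgroup Q := (Quad.czS ρ (Q : Set H)).subgroupOf Q
  have hmemZs : ∀ g : Q, g ∈ Zs ↔ (g : H) ∈ Quad.czS ρ Q := fun g => Subgroup.mem_subgroupOf
  haveI hZn : Zs.Normal := ⟨fun z hz g => by
    rw [hmemZs] at hz ⊢
    have h := (Quad.czS ρ (Q : Set H)).mul_mem (hDcz _ (hcm g g.2 z z.2)) hz
    simpa [mul_assoc] using h⟩
  let mk : Q →* Q ⧸ Zs := QuotientGroup.mk' Zs
  have hmksurj : Function.Surjective mk := QuotientGroup.mk'_surjective Zs
  have hmk1 : ∀ g : Q, mk g = 1 ↔ (g : H) ∈ Quad.czS ρ Q := fun g => by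
    rw [← hmemZs]; exact QuotientGroup.eq_one_iff g
  have hVc : ∀ a b : Q ⧸ Zs, a * b = b * a := fun a b => by
    obtain ⟨g, rfl⟩ := hmksurj a
    obtain ⟨h, rfl⟩ := hmksurj b
    rw [← mul_inv_eq_one, mul_inv_rev]
    have := (hmk1 (g * h * g⁻¹ * h⁻¹)).mpr (hDcz _ (hcm g g.2 h h.2))
    simpa [map_mul, map_inv, mul_assoc] using this
  letI : CommGroup (Q ⧸ Zs) := { (inferInstance : Group (Q ⧸ Zs)) with mul_comm := hVc }
  haveI : Module (ZMod 2) (Additive (Q ⧸ Zs)) := AddCommGroup.zmodModule (fun a => by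
    obtain ⟨g, hg⟩ := hmksurj (Additive.toMul a)
    apply Additive.toMul.injective
    rw [toMul_nsmul, toMul_zero, ← hg, ← map_pow]
    exact (hmk1 _).mpr (hDcz _ (hsq g g.2)))
  let cj : U →* MulAut Q := (Subgroup.normalizerMonoidHom Q).comp (Subgroup.inclusion hUQ)
  have hcj : ∀ (t : U) (g : Q), ((cj t g : Q) : H) = t * g * (t : H)⁻¹ := fun t g => rfl
  have hZinv : ∀ (t : U) (g : Q), g ∈ Zs → cj t g ∈ Zs := fun t g hg => by
    rw [hmemZs, Quad.mem_czS] at hg ⊢
    intro s hs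
    rw [hcj]
    have h0 : (t : H)⁻¹ * s * t ∈ Q := by
      simpa using (Subgroup.mem_normalizer_iff.mp (hUQ (U.inv_mem t.2)) s).mp hs
    have h1 := congrArg (fun w => ρ (t : H) * w * ρ (t : H)⁻¹) (hg _ h0)
    simp only [← map_mul] at h1
    convert h1 using 2 <;> group
  let fa : U → (Additive (Q ⧸ Zs) →+ Additive (Q ⧸ Zs)) := fun t =>
    MonoidHom.toAdditive (QuotientGroup.map Zs Zs (cj t).toMonoidHom (fun g hg => hZinv t g hg))
  let mkA : Q → Additive (Q ⧸ Zs) := fun g => Additive.ofMul (mk g)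
  have hmkA : ∀ v : Additive (Q ⧸ Zs), ∃ g : Q, mkA g = v := fun v => by
    obtain ⟨g, hg⟩ := hmksurj (Additive.toMul v)
    exact ⟨g, by show Additive.ofMul (mk g) = v; rw [hg, ofMul_toMul]⟩
  let φ : U →* Module.End (ZMod 2) (Additive (Q ⧸ Zs)) :=
    { toFun := fun t => (fa t).toZModLinearMap 2
      map_one' := LinearMap.ext fun v => by
        obtain ⟨g, rfl⟩ := hmkA v
        show Additive.ofMul (mk (cj 1 g)) = _
        rw [map_one]; rfl
      map_mul' := fun s t => LinearMap.ext fun v => by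
        obtain ⟨g, rfl⟩ := hmkA v
        show Additive.ofMul (mk (cj (s * t) g)) = Additive.ofMul (mk (cj s (cj t g)))
        rw [map_mul]; rfl }
  have hφ : ∀ (t : U) (g : Q), φ t (mkA g) = mkA (cj t g) := fun t g => rfl
  let G := φ.toHomUnits.range
  let φ' : G →* Module.End (ZMod 2) (Additive (Q ⧸ Zs)) := (Units.coeHom _).comp G.subtype
  have hφ' : Function.Injective φ' := fun a b h => Subtype.ext (Units.ext h)
  let mG : U →* G := φ.toHomUnits.rangeRestrict
  have hmG : ∀ t, φ' (mG t) = φ t := fun t => rfl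
  have hG : IsPGroup p G := hU.of_surjective mG φ.toHomUnits.rangeRestrict_surjective
  haveI : Finite G := Finite.of_surjective mG φ.toHomUnits.rangeRestrict_surjective
  obtain ⟨B, ⟨hBn, hBc⟩, hBmax⟩ :=
    (Set.toFinite {B : Subgroup G | B.Normal ∧ IsMulCommutative B}).exists_maximal ⟨⊥, inferInstance, inferInstance⟩
  haveI := hBn
  haveI := hBc
  haveI := hG.isNilpotent
  have hBC : Subgroup.centralizer (B : Set G) = B :=
    S0015.result B fun M h1 h2 h3 => le_antisymm (hBmax ⟨h1, h2⟩ h3) h3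
  have key : ∀ {y : H} (hy : Exc p ρ U D y), mG ⟨y, hUy hy⟩ ∈ B := by
    intro y hy
    have hyU := hUy hy
    obtain ⟨hyD, T, hT, n, hT1, hTy, hdeg⟩ := hy
    by_cases htriv : mG ⟨y, hyU⟩ = 1
    · rw [htriv]; exact B.one_mem
    have hyq : ∀ g ∈ Q, y * g * y⁻¹ ∈ Q := fun g hg => (Subgroup.mem_normalizer_iff.mp (hUQ hyU) g).mp hg
    have hyp : y ^ p = 1 := by rw [← hTy, ← pow_mul, ← pow_succ, hT1]
    have hTyc : T * y = y * T := by rw [← hTy, ← pow_succ', ← pow_succ]
    have hyD' : ∀ d ∈ D, y * d * y⁻¹ = d := fun d hd => by rw [hyD d hd, mul_inv_cancel_right]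
    -- the commutator subgroup `[Q, y]`
    let S : Subgroup H := Subgroup.closure {s | ∃ g ∈ Q, s = g⁻¹ * (y * g * y⁻¹)}
    have hfS : ∀ g ∈ Q, g⁻¹ * (y * g * y⁻¹) ∈ S := fun g hg => Subgroup.subset_closure ⟨g, hg, rfl⟩
    have hSQ : S ≤ Q := by
      rw [Subgroup.closure_le]
      rintro _ ⟨g, hg, rfl⟩
      exact Q.mul_mem (Q.inv_mem hg) (hyq g hg)
    have hSnorm : ∀ t ∈ U, t * y = y * t → ∀ s ∈ S, t * s * t⁻¹ ∈ S := by
      intro t ht hty s hs
      have h : S.map (MulAut.conj t).toMonoidHom ≤ S := by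
        rw [MonoidHom.map_closure, Subgroup.closure_le]
        rintro _ ⟨_, ⟨g, hg, rfl⟩, rfl⟩
        have h1 : t⁻¹ * y * t = y := by rw [mul_assoc, ← hty, inv_mul_cancel_left]
        refine Subgroup.subset_closure ⟨t * g * t⁻¹, (Subgroup.mem_normalizer_iff.mp (hUQ ht) g).mp hg, ?_⟩
        show t * (g⁻¹ * (y * g * y⁻¹)) * t⁻¹ = _
        calc t * (g⁻¹ * (y * g * y⁻¹)) * t⁻¹ = t * g⁻¹ * y * g * y⁻¹ * t⁻¹ := by group
          _ = t * g⁻¹ * (t⁻¹ * y * t) * g * (t⁻¹ * y * t)⁻¹ * t⁻¹ := by rw [h1]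
          _ = _ := by group
      exact h ⟨s, hs, rfl⟩
    have hSy := hSnorm y hyU rfl
    have hTS : T ∈ Subgroup.normalizer (S : Set H) := Subgroup.mem_normalizer_iff.mpr fun s =>
      ⟨hSnorm T hT hTyc s, fun h => by
        have h' := hSnorm T⁻¹ (U.inv_mem hT) (Commute.inv_left (show Commute T y from hTyc)).eq _ h
        simpa [mul_assoc] using h'⟩
    -- it is `[[Q, y], y]`
    let R : Subgroup S :=
      Subgroup.closure {x | ∃ s : S, (x : H) = (s : H)⁻¹ * (y * s * y⁻¹)}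
    have hRgen : ∀ s : S, (⟨(s : H)⁻¹ * (y * s * y⁻¹), S.mul_mem (S.inv_mem s.2) (hSy s s.2)⟩ : S) ∈ R :=
      fun s => Subgroup.subset_closure ⟨s, rfl⟩
    haveI hRn : R.Normal := ⟨fun x hx h => by
      have hle : R.map (MulAut.conj h).toMonoidHom ≤ R := by
        rw [MonoidHom.map_closure, Subgroup.closure_le]
        rintro _ ⟨x, ⟨s, hs⟩, rfl⟩
        have h1 := R.mul_mem (hRgen (s * h⁻¹)) (R.inv_mem (hRgen h⁻¹))
        refine (Subtype.ext ?_ : _ = (MulAut.conj h).toMonoidHom x) ▸ h1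
        show _ = ((h * x * h⁻¹ : S) : H)
        push_cast
        rw [hs]
        group
      exact hle ⟨x, hx, rfl⟩⟩
    have hR : R = ⊤ := by
      refine eq_top_iff.mpr ?_
      have hgenS : (⊤ : Subgroup S) ≤ Subgroup.closure {x : S | ∃ g ∈ Q, (x : H) = g⁻¹ * (y * g * y⁻¹)} := by
        intro x _
        have h : (x : H) ∈ (Subgroup.closure {x : S | ∃ g ∈ Q, (x : H) = g⁻¹ * (y * g * y⁻¹)}).map S.subtype := by
          refine (?_ : S ≤ _) x.2
          rw [Subgroup.closure_le]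
          rintro _ ⟨g, hg, rfl⟩
          exact ⟨⟨_, hfS g hg⟩, Subgroup.subset_closure ⟨g, hg, rfl⟩, rfl⟩
        obtain ⟨x', hx', he⟩ := h
        exact (Subtype.ext he : x' = x) ▸ hx'
      refine hgenS.trans ((Subgroup.closure_le _).mpr ?_)
      rintro x ⟨g, hg, hxg⟩
      let mR : S →* S ⧸ R := QuotientGroup.mk' R
      have hmR : ∀ w : S, mR ⟨y * w * y⁻¹, hSy w w.2⟩ = mR w := fun w => by
        have h1 : mR ⟨(w : H)⁻¹ * (y * w * y⁻¹), S.mul_mem (S.inv_mem w.2) (hSy w w.2)⟩ = 1 :=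
          (QuotientGroup.eq_one_iff _).mpr (hRgen w)
        rw [show (⟨y * w * y⁻¹, hSy w w.2⟩ : S) = w * ⟨(w : H)⁻¹ * (y * w * y⁻¹), S.mul_mem (S.inv_mem w.2) (hSy w w.2)⟩
          from Subtype.ext (by push_cast; group), map_mul, h1, mul_one]
      have hit : ∀ k : ℕ, ∃ w : S, y ^ k * g * (y ^ k)⁻¹ = g * w ∧ mR w = mR x ^ k := by
        intro k
        induction k with
        | zero => exact ⟨1, by simp, by simp⟩
        | succ k ih =>
          obtain ⟨w, hw, hwx⟩ := ih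
          refine ⟨x * ⟨y * w * y⁻¹, hSy w w.2⟩, ?_, by rw [map_mul, hmR, hwx, pow_succ']⟩
          push_cast
          rw [hxg]
          calc y ^ (k + 1) * g * (y ^ (k + 1))⁻¹ = y * (y ^ k * g * (y ^ k)⁻¹) * y⁻¹ := by rw [pow_succ']; group
            _ = _ := by rw [hw]; group
      obtain ⟨w, hw, hwx⟩ := hit p
      rw [hyp, inv_one, mul_one, one_mul, left_eq_mul] at hw
      rw [show w = 1 from Subtype.ext hw, map_one] at hwx
      obtain ⟨k, hk⟩ := (hQ.to_le hSQ) x
      refine (QuotientGroup.eq_one_iff x).mp (orderOf_eq_one_iff.mp (Nat.eq_one_of_dvd_coprimes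
        (((Nat.coprime_primes hp.out Nat.prime_two).mpr hp2).pow_right k)
        (orderOf_dvd_of_pow_eq_one hwx.symm) (orderOf_dvd_of_pow_eq_one ?_)))
      show mR x ^ 2 ^ k = 1
      rw [← map_pow, hk, map_one]
    let σ : MulAut S := Subgroup.normalizerMonoidHom S ⟨T, hTS⟩
    have hσpow : ∀ k (s : S), (((σ ^ k) s : S) : H) = T ^ k * s * (T ^ k)⁻¹ := fun k s => by
      rw [show σ ^ k = Subgroup.normalizerMonoidHom S (⟨T, hTS⟩ ^ k) from (map_pow _ _ _).symm]
      rfl
    have hσy : ∀ s : S, (((σ ^ p ^ n) s : S) : H) = y * s * y⁻¹ := fun s => by rw [hσpow, hTy]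
    have hnt : ∃ s : S, (ρ.comp S.subtype) s ≠ 1 := by
      by_contra hall
      push Not at hall
      refine htriv (hφ' ?_)
      rw [map_one, hmG]
      refine LinearMap.ext fun v => ?_
      obtain ⟨g, rfl⟩ := hmkA v
      rw [hφ, Module.End.one_apply]
      refine congrArg Additive.ofMul (inv_mul_eq_one.mp ?_).symm
      rw [← map_inv, ← map_mul, hmk1]
      refine (Quad.mem_czS ρ).mpr fun s _ => ?_
      push_cast
      rw [hcj]
      have h1 : ρ ((g : H)⁻¹ * (y * g * y⁻¹)) = 1 := hall ⟨_, hfS g g.2⟩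
      rw [map_mul ρ s, map_mul ρ _ s, h1, mul_one, one_mul]
    obtain ⟨W, a, m, han, hm, hWne, hWinv, hscal, hcard⟩ := exceptional_component hp2 (hQ.to_le hSQ) (ρ.comp S.subtype)
      hnt (ρ T) σ (n := n) (by rw [← map_pow, hT1, map_one])
      (fun s => by
        show ρ T * ρ s = ρ ((σ s : S) : H) * ρ T
        rw [show ((σ s : S) : H) = T * s * T⁻¹ from rfl, ← map_mul, ← map_mul, inv_mul_cancel_right])
      (MulEquiv.ext fun s => Subtype.ext (by rw [hσpow, hT1]; simp))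
      (fun s t => Subtype.ext (by
        rw [hσy]
        exact hyD' _ (by rw [commutatorElement_def]; push_cast; exact hcm _ (hSQ s.2) _ (hSQ t.2))))
      (by
        refine eq_top_iff.mpr (hR ▸ ?_)
        rw [Subgroup.closure_le]
        rintro x ⟨s, hs⟩
        have h1 : ((σ ^ p ^ n) s⁻¹ * (s⁻¹)⁻¹)⁻¹ = x := Subtype.ext (by
          push_cast
          rw [hσy, hs]
          push_cast
          group)
        exact h1 ▸ Subgroup.inv_mem _ (Subgroup.subset_closure ⟨s⁻¹, rfl⟩))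
      hdeg
    obtain ⟨w₀, hw₀, hw₀ne⟩ := Submodule.exists_mem_ne_zero_of_ne_bot hWne
    -- a scalar of `[Q, y]` lies in the radical
    have hS1 : ∀ r : S, (∃ c : K, ∀ w ∈ W, ρ (r : H) w = c • w) → ∀ s : S, ρ ((r : H) * s) = ρ ((s : H) * r) := by
      rintro r ⟨c, hc⟩ s
      obtain ⟨e, he⟩ := hDscal _ (hcm r (hSQ r.2) s (hSQ s.2))
      have h1 : ρ ((r : H) * s) = e • ρ ((s : H) * r) := by
        rw [show (r : H) * s = (r * s * (r : H)⁻¹ * (s : H)⁻¹) * (s * r) by group, map_mul, he, smul_mul_assoc,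
          one_mul]
      have h2 : ρ ((r : H) * s) w₀ = ρ ((s : H) * r) w₀ := by
        rw [map_mul, map_mul, Module.End.mul_apply, Module.End.mul_apply, hc _ (show ρ (s : H) w₀ ∈ W from hWinv s w₀ hw₀), hc _ hw₀, map_smul]
      by_cases he1 : e = 1
      · rw [h1, he1, one_smul]
      exfalso
      rw [h1, LinearMap.smul_apply] at h2
      have h3 : (e - 1) • ρ ((s : H) * r) w₀ = 0 := by rw [sub_smul, one_smul, h2, sub_self]
      rcases smul_eq_zero.mp h3 with h4 | h4
      · exact he1 (sub_eq_zero.mp h4)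
      · have h5 := congrArg (ρ ((s : H) * r)⁻¹) h4
        rw [map_zero, ← Module.End.mul_apply, (Quad.rho_inv ρ _).2, Module.End.one_apply] at h5
        exact hw₀ne h5
    -- fixed vectors of `y` in the commutator space
    have hsub : ∀ v : Additive (Q ⧸ Zs), -v = v := fun v => ZModModule.neg_eq_self v
    have hY0 : ∀ v ∈ LinearMap.range (φ ⟨y, hyU⟩ - 1), φ ⟨y, hyU⟩ v = v → v = 0 := by
      rintro _ ⟨w, rfl⟩ hv
      simp only [LinearMap.sub_apply, Module.End.one_apply, map_sub] at hv ⊢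
      have h2 : φ ⟨y, hyU⟩ (φ ⟨y, hyU⟩ w) = w := by
        rw [sub_eq_iff_eq_add] at hv
        rw [hv, sub_add_eq_add_sub, ZModModule.add_self, zero_sub, hsub]
      have hit : ∀ k : ℕ, (φ ⟨y, hyU⟩ ^ (2 * k + 1)) w = φ ⟨y, hyU⟩ w := by
        intro k
        induction k with
        | zero => simp
        | succ k ih =>
          rw [show 2 * (k + 1) + 1 = (2 * k + 1) + 1 + 1 by ring, pow_succ', Module.End.mul_apply, pow_succ',
            Module.End.mul_apply, ih, h2]
      obtain ⟨k, hk⟩ := hp.out.odd_of_ne_two hp2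
      have h3 := hit k
      rw [← hk, ← map_pow, show (⟨y, hyU⟩ : U) ^ p = 1 from Subtype.ext hyp, map_one, Module.End.one_apply] at h3
      rw [← h3, sub_self]
    have hSrange : ∀ r : S, mkA ⟨r, hSQ r.2⟩ ∈ LinearMap.range (φ ⟨y, hyU⟩ - 1) := by
      intro r
      let L : Subgroup Q := (AddSubgroup.toSubgroup' (LinearMap.range (φ ⟨y, hyU⟩ - 1)).toAddSubgroup).comap mk
      have hle : S ≤ L.map Q.subtype := by
        rw [Subgroup.closure_le]
        rintro _ ⟨g, hg, rfl⟩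
        refine ⟨⟨_, hSQ (hfS g hg)⟩, ?_, rfl⟩
        refine ⟨mkA ⟨g, hg⟩, ?_⟩
        simp only [LinearMap.sub_apply, Module.End.one_apply, hφ]
        rw [sub_eq_add_neg, add_comm]
        show -Additive.ofMul (mk ⟨g, hg⟩) + Additive.ofMul (mk (cj ⟨y, hyU⟩ ⟨g, hg⟩)) = _
        rw [← ofMul_inv, ← ofMul_mul, ← map_inv, ← map_mul]
        rfl
      obtain ⟨g, hg, he⟩ := hle r.2
      exact (show g = ⟨r, hSQ r.2⟩ from Subtype.ext he) ▸ hg
    have hrad : ∀ r : S, (∃ c : K, ∀ w ∈ W, ρ (r : H) w = c • w) → (r : H) ∈ Quad.czS ρ Q := by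
      intro r hr
      have hrs := hS1 r hr
      have h1 : y⁻¹ * r * y ∈ Q := by
        simpa using (Subgroup.mem_normalizer_iff.mp (hUQ (U.inv_mem hyU)) r).mp (hSQ r.2)
      have h2 : ((r : H)⁻¹ * (y⁻¹ * r * y)) ∈ Quad.czS ρ Q := by
        refine (Quad.mem_czS ρ).mpr fun t ht => ?_
        obtain ⟨e, he⟩ := hDscal _ (hcm r (hSQ r.2) t ht)
        have hrt : ρ ((r : H) * t) = e • ρ (t * r) := by
          rw [show (r : H) * t = (r * t * (r : H)⁻¹ * t⁻¹) * (t * r) by group, map_mul, he, smul_mul_assoc, one_mul]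
        have hrt' : ρ ((r : H) * (y * t * y⁻¹)) = e • ρ (y * t * y⁻¹ * r) := by
          set f : S := ⟨t⁻¹ * (y * t * y⁻¹), hfS t ht⟩
          rw [show y * t * y⁻¹ = t * f from (mul_inv_cancel_left t _).symm, ← mul_assoc, map_mul, hrt,
            smul_mul_assoc, ← map_mul, mul_assoc t, map_mul ρ t, hrs f, ← map_mul, ← mul_assoc]
        have hr't : ρ ((y⁻¹ * r * y) * t) = e • ρ (t * (y⁻¹ * r * y)) := by
          have h := congrArg (fun w => ρ y⁻¹ * w * ρ y) hrt'
          simp only [mul_smul_comm, smul_mul_assoc, ← map_mul] at h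
          convert h using 2 <;> [skip; congr 1] <;> group
        have ht' : e • ρ ((r : H)⁻¹ * t * r) = ρ t := by
          have h := congrArg (fun w => ρ (r : H)⁻¹ * w) hrt
          simp only [mul_smul_comm, ← map_mul, inv_mul_cancel_left] at h
          rw [h, ← mul_assoc]
        rw [mul_assoc (r : H)⁻¹ _ t, map_mul ρ _ (y⁻¹ * r * y * t), hr't, mul_smul_comm, ← map_mul,
          show (r : H)⁻¹ * (t * (y⁻¹ * r * y)) = (r : H)⁻¹ * t * r * ((r : H)⁻¹ * (y⁻¹ * r * y)) by group,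
          map_mul ρ ((r : H)⁻¹ * t * r), ← smul_mul_assoc, ht', ← map_mul]
      have h3 : φ (⟨y, hyU⟩ : U)⁻¹ (mkA ⟨r, hSQ r.2⟩) = mkA ⟨r, hSQ r.2⟩ := by
        rw [hφ]
        refine congrArg Additive.ofMul (inv_mul_eq_one.mp ?_).symm
        rw [← map_inv, ← map_mul, hmk1]
        push_cast
        rw [hcj]
        simpa using h2
      have h4 : φ ⟨y, hyU⟩ (mkA ⟨r, hSQ r.2⟩) = mkA ⟨r, hSQ r.2⟩ := by
        conv_lhs => rw [← h3, ← Module.End.mul_apply, ← map_mul, mul_inv_cancel, map_one, Module.End.one_apply]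
      exact (hmk1 _).mp (Additive.ofMul.injective (hY0 _ (hSrange r) h4))
    -- the size of the commutator space
    let gS : S →* Q ⧸ Zs := mk.comp (Subgroup.inclusion hSQ)
    have hgScard : Nat.card gS.range = 2 ^ (2 * m) := by
      have hk : Nat.card {x : S // ∃ c : K, ∀ w ∈ W, ρ (x : H) w = c • w} = Nat.card gS.ker := by
        refine Nat.card_congr (Equiv.subtypeEquivRight fun r => ?_)
        refine (Iff.intro (hrad r) fun h => hscal r fun s w _ => ?_).trans ((hmk1 (Subgroup.inclusion hSQ r)).symm.trans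
          MonoidHom.mem_ker.symm)
        show ρ (r : H) (ρ (s : H) w) = ρ (s : H) (ρ (r : H) w)
        rw [← Module.End.mul_apply, ← map_mul, ← Module.End.mul_apply, ← map_mul, (Quad.mem_czS ρ).mp h s (hSQ s.2)]
      change Nat.card {x : S // ∃ c : K, ∀ w ∈ W, ρ (x : H) w = c • w} * _ = _ at hcard
      rw [hk, Subgroup.card_eq_card_quotient_mul_card_subgroup gS.ker,
        Nat.card_congr (QuotientGroup.quotientKerEquivRange gS).toEquiv, mul_comm] at hcard
      exact (Nat.eq_of_mul_eq_mul_right Nat.card_pos hcard).symm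
    have hAcard : Nat.card (LinearMap.range (φ ⟨y, hyU⟩ - 1)) = 2 ^ (2 * m) := by
      rw [← hgScard]
      refine Nat.card_congr (Equiv.subtypeEquiv Additive.toMul fun v => ?_)
      refine ⟨?_, ?_⟩
      · rintro ⟨w, rfl⟩
        obtain ⟨g, rfl⟩ := hmkA w
        refine ⟨⟨_, hfS g g.2⟩, ?_⟩
        simp only [LinearMap.sub_apply, Module.End.one_apply, hφ]
        show mk _ = mk (cj ⟨y, hyU⟩ g) / mk g
        rw [div_eq_mul_inv, hVc, ← map_inv, ← map_mul]
        rfl
      · rintro ⟨r, hr⟩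
        have h := hSrange r
        rwa [show mkA ⟨r, hSQ r.2⟩ = v from Additive.toMul.injective hr] at h
    -- `T ^ p^a` acts irreducibly on it
    set x : G := mG (⟨T, hT⟩ ^ p ^ a) with hxdef
    have hxpow : ∀ k, x ^ k = mG (⟨T, hT⟩ ^ (p ^ a * k)) := fun k => by rw [hxdef, ← map_pow, ← pow_mul]
    have hxy' : x ^ p ^ (n - a) = mG ⟨y, hyU⟩ := by
      rw [hxpow, ← pow_add, Nat.add_sub_cancel' han]
      exact congrArg mG (Subtype.ext hTy)
    have hx1 : x ^ p ^ (n - a + 1) = 1 := by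
      rw [hxpow, ← pow_add, show a + (n - a + 1) = n + 1 by omega,
        show (⟨T, hT⟩ : U) ^ p ^ (n + 1) = 1 from Subtype.ext hT1, map_one]
    have hxord : orderOf x = 2 ^ m + 1 := by
      rw [orderOf_eq_prime_pow (p := p) (n := n - a) (by rw [hxy']; exact htriv) hx1, hm]
      congr 1
      omega
    have hpm : p ∣ 2 ^ m + 1 := hm ▸ dvd_pow_self p (by omega)
    have hcomm := commute_of_normal_abelian hpm hp2 hG φ' hφ' B (fun u hu w hw =>
        congrArg Subtype.val (hBc.is_comm.comm (⟨u, hu⟩ : B) ⟨w, hw⟩))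
      (x := x) (y := mG ⟨y, hyU⟩) (by rw [← map_pow, show (⟨y, hyU⟩ : U) ^ p = 1 from Subtype.ext hyp, map_one])
      (by rw [← hxy']; exact (Commute.self_pow x _).eq)
      (by rw [hmG]; exact hAcard) (fun A' hA' hinvA => ?_)
    · rw [← hBC]
      exact Subgroup.mem_centralizer_iff.mpr fun b hb => hcomm b hb
    rw [hmG] at hA' ⊢
    obtain ⟨j, hj2, hj⟩ : ∃ j ≤ 2 * m, Nat.card A' = 2 ^ j := by
      have h1 := Module.natCard_eq_pow_finrank (K := ZMod 2) (V := A')
      have h2 := Module.natCard_eq_pow_finrank (K := ZMod 2) (V := LinearMap.range (φ ⟨y, hyU⟩ - 1))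
      rw [Nat.card_zmod] at h1 h2
      rw [hAcard] at h2
      exact ⟨_, (Submodule.finrank_mono hA').trans (Nat.pow_right_injective le_rfl h2).ge, h1⟩
    have hiter : ∀ k, ∀ v ∈ A', φ' (x ^ k) v ∈ A' := by
      intro k
      induction k with
      | zero => intro v hv; rw [pow_zero, map_one]; exact hv
      | succ k ih => intro v hv; rw [pow_succ, map_mul, Module.End.mul_apply]; exact ih _ (hinvA v hv)
    have hdvd : Nat.card (Subgroup.zpowers x) ∣ Nat.card A' - 1 := by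
      refine card_dvd_card_sub_one (φ'.comp (Subgroup.zpowers x).subtype) A' (fun u v hv => ?_) fun u hu v hv huv => ?_
      · obtain ⟨k, hk⟩ := (isOfFinOrder_of_finite x).mem_powers_iff_mem_zpowers.mpr u.2
        change x ^ k = (u : G) at hk
        show φ' (u : G) v ∈ A'
        rw [← hk]; exact hiter k v hv
      · obtain ⟨k, hk⟩ := (isOfFinOrder_of_finite x).mem_powers_iff_mem_zpowers.mpr u.2
        change x ^ k = (u : G) at hk
        change φ' (u : G) v = v at huv
        obtain ⟨i, hi, hmem, -⟩ := mem_zpowers_pow x hx1 (fun h => hu (Subtype.ext (hk ▸ h)))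
        refine hY0 v (hA' hv) ?_
        rw [← hmG, ← hxy', show p ^ (n - a) = p ^ i * p ^ (n - a - i) by rw [← pow_add, Nat.add_sub_cancel' hi],
          pow_mul]
        obtain ⟨l, hl⟩ := (isOfFinOrder_of_finite _).mem_powers_iff_mem_zpowers.mpr hmem
        change (x ^ k) ^ l = x ^ p ^ i at hl
        rw [← hl, ← pow_mul, hk]
        have h1 : ∀ l, φ' ((u : G) ^ l) v = v := by
          intro l
          induction l with
          | zero => rw [pow_zero, map_one]; rfl
          | succ l ih => rw [pow_succ, map_mul, Module.End.mul_apply, huv, ih]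
        exact h1 _
    rw [Nat.card_zpowers, hxord, hj] at hdvd
    rcases eq_of_pow_two_modEq_one hj2 hdvd with rfl | rfl
    · left
      rw [← Submodule.toAddSubgroup_inj, Submodule.bot_toAddSubgroup]
      exact AddSubgroup.card_eq_one.mp hj
    · right
      exact Submodule.toAddSubgroup_injective (AddSubgroup.eq_of_le_of_card_ge hA' (by
        show Nat.card (LinearMap.range (φ ⟨y, hyU⟩ - 1)) ≤ Nat.card A'
        rw [hAcard, hj]))
  intro g hg
  have hz : ⁅mG ⟨y, hUy hy⟩, mG ⟨y', hUy hy'⟩⁆ = 1 := by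
    rw [commutatorElement_eq_one_iff_mul_comm]
    exact congrArg Subtype.val (hBc.is_comm.comm (⟨_, key hy⟩ : B) ⟨_, key hy'⟩)
  rw [← map_commutatorElement] at hz
  have h1 := congrArg (fun w => φ' w (mkA ⟨g, hg⟩)) hz
  simp only [hmG, map_one, Module.End.one_apply, hφ] at h1
  have h2 := Additive.ofMul.injective h1
  rw [← mul_inv_eq_one, ← map_inv, ← map_mul, hmk1] at h2
  exact h2

/-- Conjugation `g ↦ g r` with `r` fixed and of coprime order is trivial. -/
theorem eq_one_of_conj {G : Type*} [Group G] {q : ℕ} (hq : p.Coprime q) {z g r : G} (hr : z * g * z⁻¹ = g * r)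
    (hzr : z * r = r * z) {i : ℕ} (hz : z ^ p ^ i = 1) {j : ℕ} (hrj : r ^ q ^ j = 1) : r = 1 := by
  have hit : ∀ k : ℕ, z ^ k * g * (z ^ k)⁻¹ = g * r ^ k := by
    intro k
    induction k with
    | zero => simp
    | succ k ih =>
      calc z ^ (k + 1) * g * (z ^ (k + 1))⁻¹ = z * (z ^ k * g * (z ^ k)⁻¹) * z⁻¹ := by rw [pow_succ']; group
        _ = z * g * z⁻¹ * (z * r ^ k * z⁻¹) := by rw [ih]; group
        _ = g * r ^ (k + 1) := by
          rw [hr, ((show Commute z r from hzr).pow_right k).eq, mul_inv_cancel_right, mul_assoc, pow_succ']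
  have h := hit (p ^ i)
  rw [hz, inv_one, mul_one, one_mul, left_eq_mul] at h
  exact orderOf_eq_one_iff.mp (Nat.eq_one_of_dvd_coprimes (Nat.Coprime.pow i j hq)
    (orderOf_dvd_of_pow_eq_one h) (orderOf_dvd_of_pow_eq_one hrj))

/-- The common eigenspaces of an abelian `2`-group span. -/
theorem iSup_joint_eq_top {K : Type u} [Field K] [IsAlgClosed K] [CharP K p] (hp2 : p ≠ 2) {M : Type v}
    [AddCommGroup M] [Module K M] [FiniteDimensional K M] {H : Type*} [Group H] [Finite H]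
    (ρ : H →* Module.End K M) (D : Subgroup H) (hD : IsPGroup 2 D) (hc : ∀ a ∈ D, ∀ b ∈ D, a * b = b * a) :
    ⨆ φ : D → K, Quad.joint ρ D φ = ⊤ := by
  have hss : ∀ d : D, (ρ (d : H)).IsSemisimple := by
    intro d
    obtain ⟨k, hk⟩ := hD d
    have hk' : (d : H) ^ 2 ^ k = 1 := congrArg Subtype.val hk
    refine Module.End.isSemisimple_of_squarefree_aeval_eq_zero (p := Polynomial.X ^ 2 ^ k - 1)
      (Polynomial.X_pow_sub_one_separable_iff.mpr ?_).squarefree
      (by rw [map_sub, map_one, Polynomial.aeval_X_pow, ← map_pow, hk', map_one, sub_self])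
    rw [Nat.cast_pow]
    exact pow_ne_zero _ fun h => hp2
      ((Nat.prime_dvd_prime_iff_eq hp.out Nat.prime_two).mp ((CharP.cast_eq_zero_iff K p 2).mp h))
  have h := Module.End.iSup_iInf_maxGenEigenspace_eq_top_of_forall_mapsTo (fun d : D => ρ (d : H))
    (fun a b μ => Module.End.mapsTo_maxGenEigenspace_of_comm
      (show Commute (ρ (b : H)) (ρ (a : H)) from (show Commute (b : H) a from hc b b.2 a a.2).map ρ) μ)
    (fun d => Module.End.iSup_maxGenEigenspace_eq_top _)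
  rw [← h]
  exact iSup_congr fun φ => iInf_congr fun d =>
    ((hss d).isFinitelySemisimple.maxGenEigenspace_eq_eigenspace (φ d)).symm

set_option maxHeartbeats 800000 in
/-- Commutators of `p^n`-th powers centralise every normalised `2`-group. -/
theorem commute_on_twoGroup {K : Type u} [Field K] [IsAlgClosed K] [CharP K p] (hp2 : p ≠ 2) {M : Type v}
    [AddCommGroup M] [Module K M] [FiniteDimensional K M] {H : Type*} [Group H] [Finite H]
    (ρ : H →* Module.End K M) (hρ : Function.Injective ρ) {U : Subgroup H} (hU : IsPGroup p U) (n : ℕ)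
    (hexp : ∀ u ∈ U, u ^ p ^ (n + 1) = 1) (hdeg : ∀ u ∈ U, (ρ u - 1) ^ (p ^ (n + 1) - 1) = 0) :
    ∀ (c : ℕ) (Q : Subgroup H), Nat.card Q = c → IsPGroup 2 Q → U ≤ Subgroup.normalizer (Q : Set H) →
      ∀ u ∈ U, ∀ v ∈ U, ⁅u ^ p ^ n, v ^ p ^ n⁆ ∈ Subgroup.centralizer (Q : Set H) := by
  intro c
  induction c using Nat.strong_induction_on with
  | _ c IH =>
  intro Q hcQ hQ hUQ u₀ hu₀ v₀ hv₀
  classical
  haveI : Fact (Nat.Prime 2) := ⟨Nat.prime_two⟩
  have hL1 : ∀ N : Subgroup H, N ≤ Q → U ≤ Subgroup.normalizer (N : Set H) → (∀ a ∈ N, ∀ b ∈ N, a * b = b * a) →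
      ∀ u ∈ U, u ^ p ^ n ∈ Subgroup.centralizer (N : Set H) := fun N hNQ hUN hN u hu =>
    centralizes_of_abelian_or_odd hp2 ρ hρ (q := 2) hp2 u (hexp u hu) (hdeg u hu) N (hQ.to_le hNQ) (hUN hu) (Or.inl hN)
  by_cases hab : ∀ a ∈ Q, ∀ b ∈ Q, a * b = b * a
  · have h1 := hL1 Q le_rfl hUQ hab u₀ hu₀
    have h2 := hL1 Q le_rfl hUQ hab v₀ hv₀
    rw [commutatorElement_def]
    exact mul_mem (mul_mem (mul_mem h1 h2) (inv_mem h1)) (inv_mem h2)
  let Zset : Set H := {z | ∃ u ∈ U, ∃ v ∈ U, z = ⁅u ^ p ^ n, v ^ p ^ n⁆}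
  have hzU : ∀ z ∈ Zset, z ∈ U := by
    rintro _ ⟨u, hu, v, hv, rfl⟩
    rw [commutatorElement_def]
    exact mul_mem (mul_mem (mul_mem (pow_mem hu _) (pow_mem hv _)) (inv_mem (pow_mem hu _))) (inv_mem (pow_mem hv _))
  have hzconj : ∀ t ∈ U, ∀ z ∈ Zset, t * z * t⁻¹ ∈ Zset := by
    rintro t ht _ ⟨u, hu, v, hv, rfl⟩
    refine ⟨t * u * t⁻¹, U.mul_mem (U.mul_mem ht hu) (U.inv_mem ht), t * v * t⁻¹,
      U.mul_mem (U.mul_mem ht hv) (U.inv_mem ht), ?_⟩
    rw [conj_pow, conj_pow]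
    exact (map_commutatorElement (MulAut.conj t).toMonoidHom _ _)
  have hsub : ∀ R : Subgroup H, R ≤ Q → R ≠ Q → U ≤ Subgroup.normalizer (R : Set H) →
      ∀ z ∈ Zset, ∀ r ∈ R, z * r = r * z := by
    rintro R hRQ hne hUR _ ⟨u, hu, v, hv, rfl⟩ r hr
    have hlt : Nat.card R < c := by
      subst hcQ
      by_contra hle
      exact hne (Subgroup.eq_of_le_of_card_ge hRQ (not_lt.mp hle))
    exact (Subgroup.mem_centralizer_iff.mp (IH _ hlt R rfl (hQ.to_le hRQ) hUR u hu v hv) r hr).symm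
  have hzp : ∀ z ∈ Zset, ∃ i, z ^ p ^ i = 1 := fun z hz => by
    obtain ⟨i, hi⟩ := hU ⟨z, hzU z hz⟩
    exact ⟨i, congrArg Subtype.val hi⟩
  have hqord : ∀ r ∈ Q, ∃ j, r ^ 2 ^ j = 1 := fun r hr => by
    obtain ⟨j, hj⟩ := hQ ⟨r, hr⟩
    exact ⟨j, congrArg Subtype.val hj⟩
  have hcop : p.Coprime 2 := (Nat.coprime_primes hp.out Nat.prime_two).mpr hp2
  have hnormal : ∀ R : Subgroup H, (∀ t ∈ U, ∀ r ∈ R, t * r * t⁻¹ ∈ R) → U ≤ Subgroup.normalizer (R : Set H) :=
    fun R hR t ht => Subgroup.mem_normalizer_iff.mpr fun r => ⟨hR t ht r, fun h => by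
      have h' := hR t⁻¹ (U.inv_mem ht) _ h
      simpa [mul_assoc] using h'⟩
  have hconjQ : ∀ t ∈ U, ∀ g ∈ Q, t * g * t⁻¹ ∈ Q := fun t ht g hg =>
    (Subgroup.mem_normalizer_iff.mp (hUQ ht) g).mp hg
  -- `Q = [Q, Z]`
  let R : Subgroup H := Subgroup.closure {x | ∃ z ∈ Zset, ∃ g ∈ Q, x = g⁻¹ * (z * g * z⁻¹)}
  have hRQ : R ≤ Q := by
    rw [Subgroup.closure_le]
    rintro _ ⟨z, hz, g, hg, rfl⟩
    exact Q.mul_mem (Q.inv_mem hg) (hconjQ z (hzU z hz) g hg)
  refine Subgroup.mem_centralizer_iff.mpr fun g₀ hg₀ => ?_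
  set z₀ := ⁅u₀ ^ p ^ n, v₀ ^ p ^ n⁆ with hz₀def
  have hz₀ : z₀ ∈ Zset := ⟨u₀, hu₀, v₀, hv₀, rfl⟩
  obtain ⟨i₀, hi₀⟩ := hzp z₀ hz₀
  have hfin : ∀ r ∈ Q, z₀ * g₀ * z₀⁻¹ = g₀ * r → z₀ * r = r * z₀ → g₀ * z₀ = z₀ * g₀ := fun r hr h1 h2 => by
    obtain ⟨j, hj⟩ := hqord r hr
    rw [eq_one_of_conj hcop h1 h2 hi₀ hj, mul_one, mul_inv_eq_iff_eq_mul] at h1
    exact h1.symm
  by_cases hRne : R ≠ Q
  · have hUR : U ≤ Subgroup.normalizer (R : Set H) := hnormal R fun t ht r hr => by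
      have h : R.map (MulAut.conj t).toMonoidHom ≤ R := by
        rw [MonoidHom.map_closure, Subgroup.closure_le]
        rintro _ ⟨_, ⟨z, hz, g, hg, rfl⟩, rfl⟩
        refine Subgroup.subset_closure ⟨t * z * t⁻¹, hzconj t ht z hz, t * g * t⁻¹, hconjQ t ht g hg, ?_⟩
        show t * (g⁻¹ * (z * g * z⁻¹)) * t⁻¹ = _
        group
      exact h ⟨r, hr, rfl⟩
    have hr : g₀⁻¹ * (z₀ * g₀ * z₀⁻¹) ∈ R := Subgroup.subset_closure ⟨z₀, hz₀, g₀, hg₀, rfl⟩
    exact hfin _ (hRQ hr) (mul_inv_cancel_left _ _).symm (hsub R hRQ hRne hUR z₀ hz₀ _ hr)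
  have hgen : Q ≤ R := (not_not.mp hRne).ge
  -- the Frattini subgroup is central
  haveI : Nontrivial Q := (Subgroup.nontrivial_iff_ne_bot _).mpr fun h => hab (by
    intro a ha b hb
    rw [h, Subgroup.mem_bot] at ha hb
    rw [ha, hb])
  let D : Subgroup H := (frattini Q).map Q.subtype
  have hDQ : D ≤ Q := Subgroup.map_subtype_le _
  have hUD : U ≤ Subgroup.normalizer (D : Set H) := hnormal D (by
    rintro t ht _ ⟨d, hd, rfl⟩
    have h := Subgroup.characteristic_iff_map_le.mp (frattini_characteristic (G := Q))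
      (Subgroup.normalizerMonoidHom Q ⟨t, hUQ ht⟩)
    exact ⟨_, h ⟨d, hd, rfl⟩, rfl⟩)
  have hDne : D ≠ Q := fun h => by
    have h1 : frattini Q = ⊤ := by
      refine Subgroup.map_injective Q.subtype_injective ?_
      rw [← MonoidHom.range_eq_map, Subgroup.range_subtype]
      exact h
    exact bot_ne_top (frattini_nongenerating (K := (⊥ : Subgroup Q)) (by rw [h1, sup_top_eq]))
  have hDc : ∀ d ∈ D, ∀ g ∈ Q, d * g = g * d := by
    intro d hd g hg
    suffices h : Q ≤ Subgroup.centralizer (D : Set H) from Subgroup.mem_centralizer_iff.mp (h hg) d hd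
    refine hgen.trans ?_
    rw [Subgroup.closure_le]
    rintro _ ⟨z, hz, g, hg, rfl⟩
    refine Subgroup.mem_centralizer_iff.mpr fun d hd => ?_
    have hgd : g * d * g⁻¹ ∈ D := by
      obtain ⟨d', hd', rfl⟩ := hd
      exact ⟨(⟨g, hg⟩ : Q) * d' * (⟨g, hg⟩ : Q)⁻¹, (inferInstance : (frattini Q).Normal).conj_mem d' hd' _, rfl⟩
    have h1 : z⁻¹ * d * z = d := by rw [mul_assoc, ← hsub D hDQ hDne hUD z hz d hd, inv_mul_cancel_left]
    have h2 : z * (g * d * g⁻¹) * z⁻¹ = g * d * g⁻¹ := by rw [hsub D hDQ hDne hUD z hz _ hgd, mul_inv_cancel_right]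
    have h3 : g⁻¹ * (z * g * z⁻¹) * d * (g⁻¹ * (z * g * z⁻¹))⁻¹ = d := by
      calc g⁻¹ * (z * g * z⁻¹) * d * (g⁻¹ * (z * g * z⁻¹))⁻¹
          = g⁻¹ * (z * (g * (z⁻¹ * d * z) * g⁻¹) * z⁻¹) * g := by group
        _ = d := by rw [h1, h2]; group
    exact (mul_inv_eq_iff_eq_mul.mp h3).symm
  have hDab : ∀ a ∈ D, ∀ b ∈ D, a * b = b * a := fun a ha b hb => hDc a ha b (hDQ hb)
  have hsq : ∀ g ∈ Q, g ^ 2 ∈ D := fun g hg => ⟨(⟨g, hg⟩ : Q) ^ 2, FGS3.pow_mem_frattini hQ _, rfl⟩
  have hcm : ∀ g ∈ Q, ∀ h ∈ Q, g * h * g⁻¹ * h⁻¹ ∈ D := fun g hg h hh =>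
    ⟨⁅(⟨g, hg⟩ : Q), (⟨h, hh⟩ : Q)⁆, FGS3.commutator_le_frattini hQ
      (Subgroup.commutator_mem_commutator (Subgroup.mem_top _) (Subgroup.mem_top _)), rfl⟩
  -- the centre is centralised
  set Z0 : Subgroup H := Q ⊓ Subgroup.centralizer (Q : Set H) with hZ0
  have hUZ0 : U ≤ Subgroup.normalizer (Z0 : Set H) := hnormal Z0 fun t ht r hr => by
    refine ⟨hconjQ t ht r hr.1, Subgroup.mem_centralizer_iff.mpr fun s hs => ?_⟩
    have h0 : t⁻¹ * s * t ∈ Q := by simpa using hconjQ t⁻¹ (U.inv_mem ht) s hs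
    have h1 := congrArg (fun w => t * w * t⁻¹) (Subgroup.mem_centralizer_iff.mp hr.2 _ h0)
    convert h1 using 1 <;> group
  have hZ0ne : Z0 ≠ Q := fun h => hab fun a ha b hb => by
    have : b ∈ Z0 := h.symm ▸ hb
    exact Subgroup.mem_centralizer_iff.mp this.2 a ha
  set r := z₀ * g₀ * z₀⁻¹ * g₀⁻¹ with hrdef
  have hrQ : r ∈ Q := Q.mul_mem (hconjQ z₀ (hzU z₀ hz₀) g₀ hg₀) (Q.inv_mem hg₀)
  suffices hrC : r ∈ Subgroup.centralizer (Q : Set H) by
    refine hfin r hrQ ?_ (hsub Z0 inf_le_left hZ0ne hUZ0 z₀ hz₀ r ⟨hrQ, hrC⟩)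
    rw [Subgroup.mem_centralizer_iff.mp hrC g₀ hg₀, hrdef, inv_mul_cancel_right]
  refine Subgroup.mem_centralizer_iff.mpr fun s hs => (hρ ?_).symm
  refine sub_eq_zero.mp (LinearMap.ker_eq_top.mp (eq_top_iff.mpr ?_))
  rw [← iSup_joint_eq_top hp2 ρ D (hQ.to_le hDQ) hDab]
  refine iSup_le fun φ w hw => ?_
  rw [LinearMap.mem_ker, LinearMap.sub_apply, sub_eq_zero]
  set W := Quad.joint ρ D φ with hW
  by_cases hWne : W = ⊥
  · rw [hWne, Submodule.mem_bot] at hw
    rw [hw, map_zero, map_zero]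
  have hWc : ∀ x : H, (∀ d ∈ D, d * x = x * d) → x ∈ Quad.stab ρ W := fun x hx v hv => by
    rw [hW, Quad.mem_joint] at hv ⊢
    intro d
    rw [← Module.End.mul_apply, ← map_mul, hx d d.2, map_mul, Module.End.mul_apply, hv d, map_smul]
  have hQW : Q ≤ Quad.stab ρ W := fun x hx => hWc x fun d hd => hDc d hd x hx
  have hexc : ∀ u ∈ U, ∃ h : u ^ p ^ n ∈ Quad.stab ρ W,
      Exc p (Quad.res ρ W) (U.subgroupOf (Quad.stab ρ W)) (D.subgroupOf (Quad.stab ρ W)) ⟨u ^ p ^ n, h⟩ := by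
    intro u hu
    have hyD : ∀ d ∈ D, d * u ^ p ^ n = u ^ p ^ n * d :=
      Subgroup.mem_centralizer_iff.mp (hL1 D hDQ hUD hDab u hu)
    have hy : u ^ p ^ n ∈ Quad.stab ρ W := hWc _ hyD
    refine ⟨hy, fun d hd => Subtype.ext (hyD d hd).symm, ?_⟩
    have hex : ∃ a, u ^ p ^ a ∈ Quad.stab ρ W := ⟨n, hy⟩
    have ha : Nat.find hex ≤ n := Nat.find_min' hex hy
    set a := Nat.find hex
    refine ⟨⟨u ^ p ^ a, Nat.find_spec hex⟩, U.pow_mem hu _, n - a, ?_, ?_, ?_⟩
    · refine Subtype.ext ?_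
      show (u ^ p ^ a) ^ p ^ (n - a + 1) = 1
      rw [← pow_mul, ← pow_add, show a + (n - a + 1) = n + 1 by omega, hexp u hu]
    · refine Subtype.ext ?_
      show (u ^ p ^ a) ^ p ^ (n - a) = u ^ p ^ n
      rw [← pow_mul, ← pow_add, Nat.add_sub_cancel' ha]
    set d := p ^ a
    set P := p ^ (n - a + 1) with hP
    have hdP : d * P = p ^ (n + 1) := by rw [hP, ← pow_add, show a + (n - a + 1) = n + 1 by omega]
    rw [sub_one_pow_eq_geom_sum (K := K)]
    refine LinearMap.ext fun w => Subtype.ext ?_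
    simp only [LinearMap.sum_apply, AddSubmonoidClass.coe_finsetSum, ← map_pow, Quad.coe_res, SubgroupClass.coe_pow,
      LinearMap.zero_apply, ZeroMemClass.coe_zero]
    set S := ∑ k ∈ Finset.range P, ρ ((u ^ d) ^ k) (w : M) with hSdef
    have hSW : S ∈ W := W.sum_mem fun k _ => (Quad.stab ρ W).pow_mem (Nat.find_spec hex) k _ w.2
    have h0 := LinearMap.congr_fun (hdeg u hu) (w : M)
    rw [sub_one_pow_eq_geom_sum (K := K), ← hdP, LinearMap.sum_apply, sum_range_mul, Finset.sum_comm,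
      LinearMap.zero_apply] at h0
    have h0' : ∑ i ∈ Finset.range d, ρ (u ^ i) S = 0 := by
      rw [← h0]
      refine Finset.sum_congr rfl fun i _ => ?_
      rw [hSdef, map_sum]
      refine Finset.sum_congr rfl fun k _ => ?_
      rw [← map_pow ρ u, ← Module.End.mul_apply, ← map_mul, ← pow_mul, ← pow_add, add_comm]
    -- the translates are independent
    have hconjD : ∀ i (z : D), (u ^ i)⁻¹ * (z : H) * u ^ i ∈ D := fun i z => by
      simpa using (Subgroup.mem_normalizer_iff.mp (hUD (U.inv_mem (U.pow_mem hu i))) z).mp z.2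
    let φi : ℕ → D → K := fun i z => φ ⟨_, hconjD i z⟩
    have hmemi : ∀ i, ∀ v ∈ W, ρ (u ^ i) v ∈ Quad.joint ρ D (φi i) := fun i v hv => by
      rw [hW, Quad.mem_joint] at hv
      rw [Quad.mem_joint]
      intro z
      have h := hv ⟨_, hconjD i z⟩
      rw [← Module.End.mul_apply, ← map_mul,
        show (z : H) * u ^ i = u ^ i * ((u ^ i)⁻¹ * (z : H) * u ^ i) by group, map_mul, Module.End.mul_apply]
      exact (congrArg (ρ (u ^ i)) h).trans (map_smul _ _ _)
    have hstabW : ∀ k, φi k = φ → u ^ k ∈ Quad.stab ρ W := fun k hk v hv => by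
      have := hmemi k v hv
      rwa [hk] at this
    have hdist : ∀ i, i < d → 0 < i → φi i ≠ φ := fun i hid hi0 he => by
      have hmem : u ^ i ∈ Quad.stab ρ W := hstabW i he
      by_cases hne : u ^ i = 1
      · have hdvd := orderOf_dvd_of_pow_eq_one hne
        obtain ⟨t, -, ht⟩ := (Nat.dvd_prime_pow hp.out).mp (orderOf_dvd_of_pow_eq_one (hexp u hu))
        rw [ht] at hdvd
        have hta : t < a := (Nat.pow_lt_pow_iff_right hp.out.one_lt).mp
          (lt_of_le_of_lt (Nat.le_of_dvd hi0 hdvd) hid)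
        refine Nat.find_min hex hta ?_
        rw [← ht, pow_orderOf_eq_one]
        exact one_mem _
      · obtain ⟨t, -, htmem, htdvd⟩ := mem_zpowers_pow u (hexp u hu) hne
        have hta : t < a := (Nat.pow_lt_pow_iff_right hp.out.one_lt).mp
          (lt_of_le_of_lt (Nat.le_of_dvd hi0 htdvd) hid)
        exact Nat.find_min hex hta ((Subgroup.zpowers_le.mpr hmem) htmem)
    have hdpos : 0 < d := pow_pos hp.out.pos a
    rw [Finset.range_eq_Ico, Finset.sum_eq_sum_Ico_succ_bot hdpos, pow_zero, map_one, Module.End.one_apply] at h0'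
    have hS0 : S ∈ (⨆ ψ ∈ ({ψ | ∃ i, 0 < i ∧ i < d ∧ ψ = φi i} : Set (D → K)), Quad.joint ρ D ψ) := by
      rw [eq_neg_of_add_eq_zero_left h0']
      refine neg_mem (Submodule.sum_mem _ fun i hi => ?_)
      rw [Finset.mem_Ico] at hi
      exact Submodule.mem_iSup_of_mem (φi i) (Submodule.mem_iSup_of_mem ⟨i, by omega, hi.2, rfl⟩ (hmemi i S hSW))
    have hdisj := (Quad.joint_indep ρ D fun a ha b hb => by rw [hDab a ha b hb]).disjoint_biSup (x := φ)
      (y := {ψ | ∃ i, 0 < i ∧ i < d ∧ ψ = φi i}) (fun ⟨i, hi0, hid, he⟩ => hdist i hid hi0 he.symm)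
    exact (Submodule.mem_bot K).mp (hdisj.eq_bot ▸ ⟨hSW, hS0⟩)
  obtain ⟨hu', hEu⟩ := hexc u₀ hu₀
  obtain ⟨hv', hEv⟩ := hexc v₀ hv₀
  have hfinal := section_commute hp2 (Quad.res ρ W) (U := U.subgroupOf (Quad.stab ρ W))
    (Q := Q.subgroupOf (Quad.stab ρ W)) (D := D.subgroupOf (Quad.stab ρ W)) hU.comap_subtype
    (fun t ht => Subgroup.mem_normalizer_iff.mpr fun x => by
      simp only [SetLike.mem_coe, Subgroup.mem_subgroupOf, Subgroup.coe_mul, InvMemClass.coe_inv]
      exact Subgroup.mem_normalizer_iff.mp (hUQ ht) x)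
    hQ.comap_subtype (fun d hd => hDQ hd)
    (fun d hd => ⟨φ ⟨d, hd⟩, LinearMap.ext fun v => Subtype.ext (by
      rw [Quad.coe_res]
      exact (Quad.mem_joint.mp (show (v : M) ∈ Quad.joint ρ D φ from v.2)) ⟨d, hd⟩)⟩)
    (fun d hd g hg => Subtype.ext (hDc d hd g hg)) (fun g hg => hsq g hg) (fun g hg h hh => hcm g hg h hh)
    hEu hEv ⟨g₀, hQW hg₀⟩ hg₀
  have h := LinearMap.congr_fun ((Quad.mem_czS _).mp hfinal ⟨s, hQW hs⟩ hs) ⟨w, hw⟩
  exact (congrArg Subtype.val h).symm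

end Cfsg.Agent.Core.HH.TwoLayer
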