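/-
Core library, Hall–Higman: `l ≤ 2 e` for odd `p`, with no hypothesis on exceptional primes.
-/
import Cfsg.Agent.Core.HallHigman.TwoLayer

set_option autoImplicit false
set_option linter.style.haveILetI false
set_option linter.unusedSectionVars false
set_option maxSynthPendingDepth 4

namespace Cfsg.Agent.Core.HH

open Module Cfsg
open scoped commutatorElement

universe u

variable {p : ℕ} [hp : Fact p.Prime]

set_option maxHeartbeats 800000 in
/-- The powers `u ^ p^n` in a `p`-subgroup commute when `O_p = 1` and all its elements have exceptional degree. -/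
theorem commute_pows {H : Type u} [Group H] [Finite H] {M : Type u} [AddCommGroup M] [Module (ZMod p) M] [Finite M]
    (hp2 : p ≠ 2) (L : H →* Module.End (ZMod p) M) (hinj : Function.Injective L) (hs : IsPSolvable p H)
    (h0 : pCore p H = ⊥) {U : Subgroup H} (hU : IsPGroup p U) (n : ℕ) (hexp : ∀ u ∈ U, u ^ p ^ (n + 1) = 1)
    (hdeg : ∀ u ∈ U, (L u - 1) ^ (p ^ (n + 1) - 1) = 0) :
    ∀ u ∈ U, ∀ v ∈ U, u ^ p ^ n * v ^ p ^ n = v ^ p ^ n * u ^ p ^ n := by
  classical
  haveI : Module.Finite (ZMod p) M := Module.Finite.of_finite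
  let K := AlgebraicClosure (ZMod p)
  haveI : CharP K p := charP_of_injective_algebraMap (algebraMap (ZMod p) K).injective p
  let b := Module.finBasis (ZMod p) M
  let φ : Module.End (ZMod p) M →+* Module.End K (Fin (Module.finrank (ZMod p) M) → K) :=
    ((Matrix.toLinAlgEquiv' (R := K)).toRingEquiv.toRingHom.comp
      ((algebraMap (ZMod p) K).mapMatrix.comp (LinearMap.toMatrixAlgEquiv b).toRingEquiv.toRingHom))
  have hφ : Function.Injective φ := by
    intro A B hAB
    exact (LinearMap.toMatrixAlgEquiv b).injective (Matrix.map_injective (algebraMap (ZMod p) K).injective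
      ((Matrix.toLinAlgEquiv' (R := K)).injective hAB))
  let ρ := φ.toMonoidHom.comp L
  have hρ : Function.Injective ρ := hφ.comp hinj
  have hdeg' : ∀ u ∈ U, (ρ u - 1) ^ (p ^ (n + 1) - 1) = 0 := fun u hu => by
    have h := congrArg φ (hdeg u hu)
    rwa [map_zero, map_pow, map_sub, map_one] at h
  set N := pPrimeCore p H with hN
  have hA : U ≤ Subgroup.normalizer (N : Set H) := by
    rw [Subgroup.normalizer_eq_top]; exact le_top
  have hcop : (Nat.card U).Coprime (Nat.card N) := by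
    obtain ⟨k, hk⟩ := IsPGroup.iff_card.mp hU
    rw [hk]; exact (card_pPrimeCore_coprime p H).symm.pow_left k
  have hsol : Group.IsSolvable U := by
    haveI := hU.isNilpotent; infer_instance
  intro u hu v hv
  rw [← commutatorElement_eq_one_iff_mul_comm]
  set z := ⁅u ^ p ^ n, v ^ p ^ n⁆ with hz
  have hzU : z ∈ U := by
    rw [hz, commutatorElement_def]
    exact mul_mem (mul_mem (mul_mem (pow_mem hu _) (pow_mem hv _)) (inv_mem (pow_mem hu _))) (inv_mem (pow_mem hv _))
  have hzC : z ∈ Subgroup.centralizer (N : Set H) := by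
    have htop : (Subgroup.centralizer ({z} : Set H)).subgroupOf N = ⊤ := by
      refine eq_top_of_forall_exists_sylow_le fun q hq => ?_
      haveI := Fact.mk hq
      obtain ⟨P, hPN, hPq, hPi, hAP⟩ := exists_invariant_sylow hA (Or.inl hsol) hcop q
      have hPi' : ¬ q ∣ (P.subgroupOf N).index := hPi
      refine ⟨(hPq.comap_subtype (K := N)).toSylow hPi', fun w hw => ?_⟩
      refine Subgroup.mem_subgroupOf.mpr (Subgroup.mem_centralizer_singleton_iff.mpr ?_)
      by_cases hpq : p = q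
      · subst hpq
        obtain ⟨j, hj⟩ := IsPGroup.iff_card.mp hPq
        rcases Nat.eq_zero_or_pos j with rfl | hj0
        · rw [pow_zero, Subgroup.card_eq_one] at hj
          have hw' : (w : H) ∈ P := hw
          rw [hj, Subgroup.mem_bot] at hw'
          rw [hw', one_mul, mul_one]
        · exact absurd ((hj ▸ dvd_pow_self p hj0.ne').trans (Subgroup.card_dvd_of_le hPN))
            (not_dvd_card_pPrimeCore p H)
      have hzP : z ∈ Subgroup.centralizer (P : Set H) := by
        by_cases hq2 : q = 2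
        · subst hq2
          exact TwoLayer.commute_on_twoGroup hp2 ρ hρ hU n hexp hdeg' _ P rfl hPq hAP u hu v hv
        · have h1 := TwoLayer.centralizes_of_abelian_or_odd hp2 ρ hρ hpq u (hexp u hu) (hdeg' u hu) P hPq (hAP hu)
            (Or.inr hq2)
          have h2 := TwoLayer.centralizes_of_abelian_or_odd hp2 ρ hρ hpq v (hexp v hv) (hdeg' v hv) P hPq (hAP hv)
            (Or.inr hq2)
          rw [hz, commutatorElement_def]
          exact mul_mem (mul_mem (mul_mem h1 h2) (inv_mem h1)) (inv_mem h2)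
      exact Subgroup.mem_centralizer_iff.mp hzP (w : H) hw
    refine Subgroup.mem_centralizer_iff.mpr fun w hw => ?_
    exact Subgroup.mem_centralizer_singleton_iff.mp ((Subgroup.subgroupOf_eq_top.mp htop) hw)
  have h1 : piCore ({p}ᶜ)ᶜ H = ⊥ := by rw [compl_compl, ← pCore_eq_piCore, h0]
  have h2 := centralizer_piCore_le (isPiSeparable_compl (isPiSeparable_of_isPSolvable hs)) h1
  rw [← pPrimeCore_eq_piCore] at h2
  obtain ⟨k, hk⟩ := hU ⟨z, hzU⟩
  exact orderOf_eq_one_iff.mp (Nat.eq_one_of_dvd_coprimes ((card_pPrimeCore_coprime p H).symm.pow_left k)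
    (orderOf_dvd_of_pow_eq_one (congrArg Subtype.val hk)) (Subgroup.orderOf_dvd_natCard _ (h2 hzC)))

set_option maxHeartbeats 800000 in
/-- Over two layers of the upper `p`-series the exponent drops. -/
theorem exponent_drop_two {G : Type u} [Group G] [Finite G] (hp2 : p ≠ 2) (hs : IsPSolvable p G)
    (h0 : pPrimeCore p G = ⊥) {e : ℕ} (hexp : ExpLE p (e + 1) G) :
    ExpLE p e (((G ⧸ pCore p G) ⧸ pPrimeCore p (G ⧸ pCore p G)) ⧸
      pCore p ((G ⧸ pCore p G) ⧸ pPrimeCore p (G ⧸ pCore p G))) := by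
  classical
  obtain ⟨M, _, _, _, π, L, hsurj, hadd, hinj, hconj⟩ := exists_quotient_rep hs h0
  have hsH := isPSolvable_quotient hs (pCore p G)
  have hsH1 := isPSolvable_quotient hsH (pPrimeCore p (G ⧸ pCore p G))
  obtain ⟨M2, _, _, _, π2, L2, hsurj2, hadd2, hinj2, hconj2⟩ :=
    exists_quotient_rep hsH1 (pPrimeCore_quotient_pPrimeCore p (G ⧸ pCore p G))
  have hexpH : ExpLE p (e + 1) (G ⧸ pCore p G) := hexp.quotient _
  intro x hx
  obtain ⟨x1, hx1, rfl⟩ := exists_lift_p_element _ x hx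
  obtain ⟨g, hg, rfl⟩ := exists_lift_p_element _ x1 hx1
  set mk1 := QuotientGroup.mk' (pPrimeCore p (G ⧸ pCore p G)) with hmk1
  set mk2 := QuotientGroup.mk' (pCore p ((G ⧸ pCore p G) ⧸ pPrimeCore p (G ⧸ pCore p G))) with hmk2
  obtain ⟨S, hS⟩ : ∃ S : Sylow p (G ⧸ pCore p G), g ∈ (S : Subgroup (G ⧸ pCore p G)) := by
    obtain ⟨k, hk⟩ := hg
    obtain ⟨j, -, hj⟩ := (Nat.dvd_prime_pow hp.out).mp (orderOf_dvd_of_pow_eq_one hk)
    obtain ⟨S, hS⟩ := (IsPGroup.of_card (G := Subgroup.zpowers g) (n := j)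
      (by rw [Nat.card_zpowers, hj])).exists_le_sylow
    exact ⟨S, hS (Subgroup.mem_zpowers g)⟩
  have hUp : ∀ u ∈ (S : Subgroup (G ⧸ pCore p G)), ∃ k, u ^ p ^ k = 1 := fun u hu => by
    obtain ⟨k, hk⟩ := S.isPGroup' ⟨u, hu⟩
    exact ⟨k, congrArg Subtype.val hk⟩
  have hcomm := commute_pows hp2 L hinj hsH (pCore_quotient_pCore p G) (U := (S : Subgroup (G ⧸ pCore p G)))
    S.isPGroup' e (fun u hu => hexpH u (hUp u hu)) (fun u hu => by
      obtain ⟨g0, hg0, rfl⟩ := exists_lift_p_element _ u (hUp u hu)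
      exact sub_one_pow_eq_zero (isPGroup_pCore p G) π (L.comp (QuotientGroup.mk' _)) hsurj hadd hconj hexp g0 hg0)
  set g1 := mk1 g with hg1
  set m := p ^ e with hm
  -- the degree on the next layer
  have hdeg : (L2 (mk2 g1) - 1) ^ (2 * m - 1) = 0 := by
    refine LinearMap.ext fun w => ?_
    obtain ⟨v, rfl⟩ := hsurj2 w
    obtain ⟨w0, hw0, hwv⟩ : ∃ w0 ∈ (S : Subgroup (G ⧸ pCore p G)), mk1 w0 = (v : _) := by
      have h := pCore_le_sylow (S.mapSurjective (QuotientGroup.mk'_surjective (pPrimeCore p (G ⧸ pCore p G)))) v.2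
      rw [Sylow.coe_mapSurjective] at h
      exact h
    obtain ⟨wm, hwm, hπm⟩ := geom_sum_apply_eq_zero π2 (L2.comp mk2) hadd2 hconj2 g1 v m
    have hc := congrArg mk1 (hcomm (w0 * g) (mul_mem hw0 hS) g hS)
    simp only [map_mul, map_pow, hwv] at hc
    rw [hwm] at hc
    have hfix : π2 wm = L2 (mk2 (g1 ^ m)) (π2 wm) := hconj2 (g1 ^ m) wm wm (by
      rw [eq_mul_inv_iff_mul_eq]
      exact mul_right_cancel (hc.trans (mul_assoc _ _ _).symm))
    set X := L2 (mk2 g1) with hX
    have hXs : (X ^ m - 1) ((∑ i ∈ Finset.range m, X ^ i) (π2 v)) = 0 := by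
      rw [LinearMap.sub_apply, Module.End.one_apply, sub_eq_zero]
      have h1 : π2 wm = (∑ i ∈ Finset.range m, X ^ i) (π2 v) := hπm
      rw [← h1, hX, ← map_pow, ← map_pow]
      exact hfix.symm
    rw [LinearMap.zero_apply, show 2 * m - 1 = m + (m - 1) by omega, pow_add, Module.End.mul_apply, hm,
      sub_one_pow_char_pow (K := ZMod p), sub_one_pow_eq_geom_sum (K := ZMod p), ← hm]
    exact hXs
  obtain ⟨n, hn, hord⟩ := (Nat.dvd_prime_pow hp.out).mp
    (orderOf_dvd_of_pow_eq_one (show (mk2 g1) ^ p ^ (e + 1) = 1 by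
      rw [hg1, ← map_pow, ← map_pow, hexpH g hg, map_one, map_one]))
  rcases Nat.lt_or_ge n (e + 1) with hlt | hge
  · exact orderOf_dvd_iff_pow_eq_one.mp (hord ▸ pow_dvd_pow p (by omega))
  exfalso
  obtain rfl : n = e + 1 := by omega
  have h2 : 2 * m ≤ p ^ (e + 1) - p ^ e := by
    have h3 : 3 ≤ p := by have := hp.out.two_le; omega
    rw [hm, pow_succ]
    have := Nat.mul_le_mul_left (p ^ e) h3
    omega
  have hm1 : 1 ≤ m := Nat.one_le_pow _ _ hp.out.pos
  rcases theoremB_zmod L2 hinj2 (isPSolvable_quotient hsH1 _)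
    (pCore_quotient_pCore p ((G ⧸ pCore p G) ⧸ pPrimeCore p (G ⧸ pCore p G))) _ (by omega : 0 < e + 1) hord _ hdeg
    with h | ⟨a, mq, q, ha, -, -, -, -, h⟩
  · omega
  · rw [Nat.mul_sub, mul_one, ← pow_add, Nat.add_sub_cancel' ha.le] at h
    have := Nat.pow_le_pow_right hp.out.pos (Nat.lt_succ_iff.mp ha)
    omega

/-- For odd `p` the p-length is at most twice the exponent. -/
theorem pLengthLE_two_mul (hp2 : p ≠ 2) : ∀ (e : ℕ) {G : Type u} [Group G] [Finite G], IsPSolvable p G →
    ExpLE p e G → PLengthLE p (2 * e) G := by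
  intro e
  induction e with
  | zero => exact fun _ h => pLengthLE_zero_of_expLE h
  | succ e ih =>
    intro G _ _ hs hexp
    rw [Nat.mul_succ, show 2 * e + 2 = (2 * e + 1) + 1 from rfl, ← pLengthLE_quotient_pPrimeCore_iff,
      pLengthLE_succ_iff]
    have hs' := isPSolvable_quotient hs (pPrimeCore p G)
    have h0 := pPrimeCore_quotient_pPrimeCore p G
    refine pLengthLE_congr _ _ (pPrimePCore_eq_pCore h0).symm ?_
    rw [← pLengthLE_quotient_pPrimeCore_iff, pLengthLE_succ_iff]
    have hs'' := isPSolvable_quotient (isPSolvable_quotient hs' (pCore p (G ⧸ pPrimeCore p G)))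
      (pPrimeCore p ((G ⧸ pPrimeCore p G) ⧸ pCore p (G ⧸ pPrimeCore p G)))
    refine pLengthLE_congr _ _ (pPrimePCore_eq_pCore (pPrimeCore_quotient_pPrimeCore p _)).symm ?_
    exact ih (isPSolvable_quotient hs'' _) (exponent_drop_two hp2 hs' h0 (hexp.quotient _))

end Cfsg.Agent.Core.HH
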