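/-
Core library, Hall–Higman: an element of full degree gives a section `C_p ≀ C_p`.
-/
import Cfsg.Agent.Core.HallHigman.PLengthBound
import Cfsg.Prelude.Def_LocalEven
import Mathlib.Logic.Small.Basic
import Mathlib.Algebra.Group.Shrink

set_option autoImplicit false
set_option linter.style.haveILetI false
set_option linter.unusedSectionVars false
set_option maxSynthPendingDepth 4

namespace Cfsg.Agent.Core.HH

open Module Cfsg

variable {p : ℕ} [hp : Fact p.Prime]

/-- Coordinates along a chain of length `p`. -/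
theorem exists_chain_coords {M : Type*} [AddCommGroup M] [Module (ZMod p) M] (D : Module.End (ZMod p) M)
    (hDp : D ^ p = 0) (hD : D ^ (p - 1) ≠ 0) :
    ∃ φ : M →ₗ[ZMod p] (ℕ → ZMod p), (∀ m j, p ≤ j → φ m j = 0) ∧ (∀ m j, φ (D m) j = φ m (j + 1)) ∧
      (∀ c : ℕ → ZMod p, ∃ m, ∀ j, j < p → φ m j = c j) := by
  classical
  obtain ⟨v0, hv0⟩ : ∃ v, (D ^ (p - 1)) v ≠ 0 := by
    by_contra h
    simp only [not_exists, not_not] at h
    exact hD (LinearMap.ext h)
  obtain ⟨f0, hf0⟩ := Module.Projective.exists_dual_eq_one (ZMod p) hv0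
  let φ : M →ₗ[ZMod p] (ℕ → ZMod p) := LinearMap.pi fun j => f0.comp (D ^ j)
  have hφ : ∀ m j, φ m j = f0 ((D ^ j) m) := fun m j => rfl
  have hkill : ∀ j, p ≤ j → ∀ m, (D ^ j) m = 0 := fun j hj m => by
    rw [pow_eq_zero_of_le hj hDp, LinearMap.zero_apply]
  refine ⟨φ, fun m j hj => by rw [hφ, hkill j hj, map_zero],
    fun m j => by rw [hφ, hφ, pow_succ, Module.End.mul_apply], ?_⟩
  let Ψ : (Fin p → ZMod p) →ₗ[ZMod p] M :=
    ∑ i : Fin p, (LinearMap.proj i).smulRight ((D ^ (p - 1 - (i : ℕ))) v0)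
  let R : M →ₗ[ZMod p] (Fin p → ZMod p) := LinearMap.pi fun j => f0.comp (D ^ (j : ℕ))
  have hΨ : ∀ c, Ψ c = ∑ i : Fin p, c i • (D ^ (p - 1 - (i : ℕ))) v0 := fun c => by
    simp [Ψ, LinearMap.sum_apply]
  have hinj : Function.Injective (R.comp Ψ) := by
    rw [injective_iff_map_eq_zero]
    intro c hc
    by_contra hne
    obtain ⟨i0, hi0⟩ : ∃ i, c i ≠ 0 := by
      by_contra h
      simp only [not_exists, not_not] at h
      exact hne (funext h)
    obtain ⟨i, hi, hmax⟩ := (Finset.univ.filter fun i => c i ≠ 0).exists_max_image (fun i : Fin p => (i : ℕ))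
      ⟨i0, Finset.mem_filter.mpr ⟨Finset.mem_univ _, hi0⟩⟩
    refine (Finset.mem_filter.mp hi).2 ?_
    have h := congrFun hc i
    rw [LinearMap.comp_apply, hΨ] at h
    simp only [R, LinearMap.pi_apply, LinearMap.comp_apply, map_sum, map_smul, Pi.zero_apply] at h
    rw [Finset.sum_eq_single i] at h
    · rw [← Module.End.mul_apply, ← pow_add, show (i : ℕ) + (p - 1 - (i : ℕ)) = p - 1 by have := i.2; omega, hf0,
        smul_eq_mul, mul_one] at h
      exact h
    · intro k _ hk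
      by_cases hck : c k = 0
      · rw [hck, zero_smul]
      · have hlt : (k : ℕ) < (i : ℕ) := lt_of_le_of_ne (hmax k (Finset.mem_filter.mpr ⟨Finset.mem_univ _, hck⟩))
          (Fin.val_ne_iff.mpr hk)
        rw [← Module.End.mul_apply, ← pow_add, hkill _ (by have := i.2; omega), map_zero, smul_zero]
    · exact fun h' => absurd (Finset.mem_univ i) h'
  intro c
  obtain ⟨d, hd⟩ := (LinearMap.injective_iff_surjective.mp hinj) (fun j : Fin p => c j)
  exact ⟨Ψ d, fun j hj => congrFun hd ⟨j, hj⟩⟩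

/-- An element acting with full degree `p` on `V / Φ(V)` gives a section `C_p ≀ C_p`. -/
theorem involves_wreath {G : Type*} [Group G] [Finite G] {V : Subgroup G} [hVn : V.Normal] (P : Subgroup G)
    (hVP : V ≤ P) {M : Type*} [AddCommGroup M] [Module (ZMod p) M] (π : V → M) (L : G →* Module.End (ZMod p) M)
    (hsurj : Function.Surjective π) (hadd : ∀ v w, π (v * w) = π v + π w)
    (hconj : ∀ (g : G) (v w : V), (w : G) = g * v * g⁻¹ → π w = L g (π v))
    (g : G) (hgP : g ∈ P) (hgV : g ∉ V) (hgp : g ^ p ∈ V) (hdeg : (L g - 1) ^ (p - 1) ≠ 0) :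
    ∃ (W : Type) (_ : Group W) (_ : Finite W), (∃ (B : Subgroup W) (t : W), B.Normal ∧ IsMulCommutative B ∧
      (∀ b ∈ B, b ^ p = 1) ∧ Nat.card B = p ^ p ∧ orderOf t = p ∧ t ∉ B ∧ Nat.card W = p ^ (p + 1) ∧
      Nat.card ↥(B ⊓ Subgroup.centralizer ({t} : Set W)) = p) ∧ Cfsg.Involves W ↥P := by
  classical
  have hp2 := hp.out.two_le
  have hπ1 : π 1 = 0 := by
    have h := hadd 1 1
    rw [one_mul, left_eq_add] at h
    exact h
  have hπinv : ∀ v, π v⁻¹ = - π v := fun v => by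
    have h := hadd v v⁻¹
    rw [mul_inv_cancel, hπ1] at h
    exact (neg_eq_of_add_eq_zero_right h.symm).symm
  have hπpow : ∀ v (k : ℕ), π (v ^ k) = k • π v := by
    intro v k
    induction k with
    | zero => rw [pow_zero, hπ1, zero_smul]
    | succ k ih => rw [pow_succ, hadd, ih, succ_nsmul]
  have hVtriv : ∀ x ∈ V, L x = 1 := fun x hx => LinearMap.ext fun m => by
    obtain ⟨v, rfl⟩ := hsurj m
    rw [← hconj x v (⟨x, hx⟩ * v * (⟨x, hx⟩ : V)⁻¹) (by simp), hadd, hadd, hπinv, Module.End.one_apply]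
    abel
  have hDp : (L g - 1) ^ p = 0 := by
    have h := sub_one_pow_char_pow (K := ZMod p) (L g) 1
    rw [pow_one] at h
    rw [h, ← map_pow, hVtriv _ hgp, sub_self]
  obtain ⟨φ, hφtop, hφD, hφsurj⟩ := exists_chain_coords (L g - 1) hDp hdeg
  have hφext : ∀ m, (∀ j, j < p → φ m j = 0) → φ m = 0 := fun m h => funext fun j => by
    rcases Nat.lt_or_ge j p with hj | hj
    · exact h j hj
    · exact hφtop m j hj
  have hconjφ : ∀ (v w : V), (w : G) = g * v * g⁻¹ → ∀ j, φ (π w) j = φ (π v) j + φ (π v) (j + 1) := by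
    intro v w hw j
    rw [hconj g v w hw, ← hφD, ← Pi.add_apply, ← map_add, LinearMap.sub_apply, Module.End.one_apply,
      add_sub_cancel]
  -- the kernel
  let N : Subgroup G :=
    { carrier := {x | ∃ h : x ∈ V, φ (π ⟨x, h⟩) = 0}
      one_mem' := ⟨V.one_mem, by rw [show (⟨(1 : G), V.one_mem⟩ : V) = 1 from rfl, hπ1, map_zero]⟩
      mul_mem' := by
        rintro a b ⟨ha, ha'⟩ ⟨hb, hb'⟩
        exact ⟨V.mul_mem ha hb, by
          rw [show (⟨a * b, V.mul_mem ha hb⟩ : V) = ⟨a, ha⟩ * ⟨b, hb⟩ from rfl, hadd, map_add, ha', hb', add_zero]⟩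
      inv_mem' := by
        rintro a ⟨ha, ha'⟩
        exact ⟨V.inv_mem ha, by
          rw [show (⟨a⁻¹, V.inv_mem ha⟩ : V) = ⟨a, ha⟩⁻¹ from rfl, hπinv, map_neg, ha', neg_zero]⟩ }
  have hNmem : ∀ v : V, (v : G) ∈ N ↔ φ (π v) = 0 := fun v => ⟨fun ⟨_, h⟩ => h, fun h => ⟨v.2, h⟩⟩
  have hNV : N ≤ V := fun x ⟨h, _⟩ => h
  set Kg : Subgroup G := V ⊔ Subgroup.zpowers g with hKg
  have hKgP : Kg ≤ P := sup_le hVP (Subgroup.zpowers_le.mpr hgP)
  have hVK : V ≤ Kg := le_sup_left
  have hgK : g ∈ Kg := Subgroup.mem_sup_right (Subgroup.mem_zpowers g)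
  have hnorm : Kg ≤ Subgroup.normalizer (N : Set G) := by
    refine sup_le (fun x hx => ?_) (Subgroup.zpowers_le.mpr ?_)
    · refine Cfsg.Agent.Coprime.mem_normalizer_of_conj_mem fun y hy => ?_
      obtain ⟨hyV, hy'⟩ := hy
      refine ⟨hVn.conj_mem y hyV x, ?_⟩
      rw [hconj x ⟨y, hyV⟩ _ rfl, hVtriv x hx, Module.End.one_apply, hy']
    · refine Cfsg.Agent.Coprime.mem_normalizer_of_conj_mem fun y hy => ?_
      obtain ⟨hyV, hy'⟩ := hy
      refine ⟨hVn.conj_mem y hyV g, funext fun j => ?_⟩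
      rw [hconjφ ⟨y, hyV⟩ _ rfl, hy']
      simp
  haveI hNn : (N.subgroupOf Kg).Normal := Subgroup.normal_subgroupOf_of_le_normalizer hnorm
  let mk := QuotientGroup.mk' (N.subgroupOf Kg)
  -- cardinalities
  have hcardV : Nat.card V = p ^ p * Nat.card N := by
    let χ : V →* Multiplicative (Fin p → ZMod p) :=
      { toFun := fun v => Multiplicative.ofAdd fun j => φ (π v) j
        map_one' := by rw [hπ1, map_zero]; rfl
        map_mul' := fun v w => by rw [hadd, map_add]; rfl }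
    have hχker : χ.ker = N.subgroupOf V := by
      ext v
      rw [MonoidHom.mem_ker, Subgroup.mem_subgroupOf, hNmem]
      refine ⟨fun h => hφext _ fun j hj => congrFun (congrArg Multiplicative.toAdd h) ⟨j, hj⟩, fun h => ?_⟩
      show Multiplicative.ofAdd _ = _
      rw [h]; rfl
    have hχs : Function.Surjective χ := fun c => by
      obtain ⟨m, hm⟩ := hφsurj (fun j => if h : j < p then Multiplicative.toAdd c ⟨j, h⟩ else 0)
      obtain ⟨v, rfl⟩ := hsurj m
      refine ⟨v, Multiplicative.toAdd.injective (funext fun j => ?_)⟩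
      show φ (π v) j = _
      rw [hm j j.2, dif_pos j.2]
    have h := card_comap_of_surjective hχs (⊤ : Subgroup (Multiplicative (Fin p → ZMod p)))
    rw [Subgroup.comap_top, Subgroup.card_top, Subgroup.card_top, hχker, card_subgroupOf hNV,
      Nat.card_congr Multiplicative.toAdd, Nat.card_fun, Nat.card_fin, Nat.card_zmod] at h
    exact h
  have hgord : orderOf (QuotientGroup.mk' V g) = p :=
    orderOf_eq_prime (by rw [← map_pow]; exact (QuotientGroup.eq_one_iff _).mpr hgp)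
      fun h => hgV ((QuotientGroup.eq_one_iff g).mp h)
  have hcardK : Nat.card Kg = p * Nat.card V := by
    have h : Kg = (Subgroup.zpowers (QuotientGroup.mk' V g)).comap (QuotientGroup.mk' V) := by
      rw [← MonoidHom.map_zpowers, Subgroup.comap_map_eq, QuotientGroup.ker_mk', hKg, sup_comm]
    rw [h, card_comap_mk, Nat.card_zpowers, hgord]
  set B := (V.subgroupOf Kg).map mk with hB
  have hNle : N.subgroupOf Kg ≤ V.subgroupOf Kg := fun x hx => hNV hx
  have hBcard : Nat.card B = p ^ p := by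
    have h := card_comap_mk (N.subgroupOf Kg) B
    rw [hB, Subgroup.comap_map_eq, QuotientGroup.ker_mk', sup_eq_left.mpr hNle, card_subgroupOf hVK,
      card_subgroupOf (hNV.trans hVK), hcardV] at h
    exact (Nat.eq_of_mul_eq_mul_right Nat.card_pos h).symm
  have hWcard : Nat.card (Kg ⧸ N.subgroupOf Kg) = p ^ (p + 1) := by
    have h := Subgroup.card_eq_card_quotient_mul_card_subgroup (N.subgroupOf Kg)
    rw [hcardK, hcardV, card_subgroupOf (hNV.trans hVK), ← mul_assoc, ← pow_succ'] at h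
    exact (Nat.eq_of_mul_eq_mul_right Nat.card_pos h).symm
  have hmk : ∀ a b : Kg, mk a = mk b ↔ (a : G)⁻¹ * b ∈ N := fun a b => by
    show (a : Kg ⧸ N.subgroupOf Kg) = b ↔ _
    rw [QuotientGroup.eq, Subgroup.mem_subgroupOf]
    rfl
  have hBmem : ∀ b ∈ B, ∃ v : V, mk ⟨v, hVK v.2⟩ = b := by
    rintro _ ⟨y, hy, rfl⟩
    exact ⟨⟨y, hy⟩, rfl⟩
  have hVmk : ∀ v w : V, mk ⟨v, hVK v.2⟩ = mk ⟨w, hVK w.2⟩ ↔ φ (π v) = φ (π w) := fun v w => by
    rw [hmk, show (v : G)⁻¹ * w = ((v⁻¹ * w : V) : G) from rfl, hNmem, hadd, hπinv, map_add, map_neg,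
      neg_add_eq_zero]
  haveI hBn : B.Normal :=
    Subgroup.Normal.map (inferInstance : (V.subgroupOf Kg).Normal) _ (QuotientGroup.mk'_surjective _)
  have hBcomm : IsMulCommutative B := ⟨⟨by
    rintro ⟨a, ha⟩ ⟨b, hb⟩
    obtain ⟨v, rfl⟩ := hBmem a ha
    obtain ⟨w, rfl⟩ := hBmem b hb
    refine Subtype.ext ?_
    show mk _ * mk _ = mk _ * mk _
    rw [← map_mul, ← map_mul]
    exact (hVmk (v * w) (w * v)).mpr (by rw [hadd, hadd, add_comm])⟩⟩
  have hBexp : ∀ b ∈ B, b ^ p = 1 := by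
    intro b hb
    obtain ⟨v, rfl⟩ := hBmem b hb
    rw [← map_pow, ← map_one mk]
    refine (hVmk (v ^ p) 1).mpr ?_
    rw [hπpow, hπ1, map_nsmul, map_zero]
    refine funext fun j => ?_
    rw [Pi.smul_apply, nsmul_eq_mul, ZMod.natCast_self, zero_mul, Pi.zero_apply]
  -- the element `t`
  set zp : V := ⟨g ^ p, hgp⟩ with hzp
  have hzfix : ∀ j, φ (π zp) (j + 1) = 0 := fun j => by
    have h := hconjφ zp zp (by simp only [hzp]; group) j
    exact left_eq_add.mp h
  obtain ⟨m0, hm0⟩ := hφsurj (fun j => if j = p - 1 then - φ (π zp) 0 else 0)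
  obtain ⟨u0, rfl⟩ := hsurj m0
  obtain ⟨w, hw, hπw⟩ := geom_sum_apply_eq_zero π L hadd hconj g u0 p
  have ht0p : ∀ j, φ (π w) j + φ (π zp) j = 0 := by
    intro j
    have hs : (∑ i ∈ Finset.range p, L g ^ i) = (L g - 1) ^ (p - 1) := by
      have h := sub_one_pow_eq_geom_sum (K := ZMod p) (L g) 1
      rw [pow_one] at h
      exact h.symm
    have hpow : ∀ (k : ℕ) m i, φ (((L g - 1) ^ k) m) i = φ m (i + k) := by
      intro k
      induction k with
      | zero => simp
      | succ k ih =>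
        intro m i
        rw [pow_succ, Module.End.mul_apply, ih, hφD, add_assoc]
    rw [hπw, hs, hpow]
    rcases Nat.eq_zero_or_pos j with rfl | hj
    · rw [zero_add, hm0 _ (by omega), if_pos rfl, neg_add_cancel]
    · rw [hφtop _ _ (by omega), show j = j - 1 + 1 by omega, hzfix, add_zero]
  set t0 : Kg := ⟨u0 * g, Kg.mul_mem (hVK u0.2) hgK⟩ with ht0
  set t := mk t0 with ht
  have htp : t ^ p = 1 := by
    rw [ht, ← map_pow, ← map_one mk, hmk]
    have hN' : ((w * zp : V) : G) ∈ N := (hNmem _).mpr (funext fun j => by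
      rw [hadd, map_add, Pi.add_apply, Pi.zero_apply, ht0p])
    have he : ((t0 ^ p : Kg) : G) = ((w * zp : V) : G) := by
      rw [SubgroupClass.coe_pow, ht0]; exact hw
    rw [he, Subgroup.coe_one, mul_one]
    exact N.inv_mem hN'
  have htB : t ∉ B := fun h => by
    obtain ⟨v, hv⟩ := hBmem t h
    rw [ht, hmk] at hv
    have h1 : (v : G)⁻¹ * (u0 * g) ∈ V := hNV hv
    have h2 := V.mul_mem (V.inv_mem u0.2) (V.mul_mem v.2 h1)
    rw [show (u0 : G)⁻¹ * ((v : G) * ((v : G)⁻¹ * (u0 * g))) = g by group] at h2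
    exact hgV h2
  have hto : orderOf t = p := orderOf_eq_prime htp fun h => htB (h ▸ B.one_mem)
  have hCt : ∀ v : V, mk ⟨v, hVK v.2⟩ * t = t * mk ⟨v, hVK v.2⟩ ↔ ∀ j, φ (π v) (j + 1) = 0 := by
    intro v
    let v' : V := ⟨g * v * g⁻¹, hVn.conj_mem v v.2 g⟩
    have e1 : t * mk ⟨v, hVK v.2⟩ = mk ⟨(u0 * v' * u0⁻¹ : V), hVK (u0 * v' * u0⁻¹ : V).2⟩ * t := by
      rw [ht, ← map_mul, ← map_mul]
      congr 1
      refine Subtype.ext ?_
      show (u0 : G) * g * v = (u0 : G) * (g * v * g⁻¹) * (u0 : G)⁻¹ * (u0 * g)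
      group
    rw [e1, mul_left_inj, hVmk, hadd, hadd, hπinv, show π u0 + π v' + -π u0 = π v' by abel]
    refine ⟨fun h j => ?_, fun h => funext fun j => by rw [hconjφ v v' rfl, h, add_zero]⟩
    have h2 := congrFun h j
    rw [hconjφ v v' rfl] at h2
    exact left_eq_add.mp h2
  have hcc : Nat.card ↥(B ⊓ Subgroup.centralizer ({t} : Set (Kg ⧸ N.subgroupOf Kg))) = p := by
    choose rep hrep using fun c : ZMod p => hφsurj (fun j => if j = 0 then c else 0)
    choose repv hrepv using fun c : ZMod p => hsurj (rep c)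
    have hmem : ∀ c, mk ⟨repv c, hVK (repv c).2⟩ ∈ B ⊓ Subgroup.centralizer ({t} : Set (Kg ⧸ N.subgroupOf Kg)) :=
      fun c => ⟨⟨⟨repv c, hVK (repv c).2⟩, (repv c).2, rfl⟩, Subgroup.mem_centralizer_singleton_iff.mpr
        ((hCt _).mpr fun j => by
          rcases Nat.lt_or_ge (j + 1) p with hj | hj
          · rw [hrepv, hrep c _ hj, if_neg (Nat.succ_ne_zero j)]
          · exact hφtop _ _ hj)⟩
    rw [← Nat.card_eq_of_bijective (fun c => (⟨_, hmem c⟩ : ↥(B ⊓ Subgroup.centralizer ({t} : Set (Kg ⧸ N.subgroupOf Kg))))) ⟨?_, ?_⟩,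
      Nat.card_zmod]
    · intro c d h
      have h1 := congrFun ((hVmk _ _).mp (congrArg Subtype.val h)) 0
      rwa [hrepv, hrepv, hrep c 0 (by omega), hrep d 0 (by omega), if_pos rfl, if_pos rfl] at h1
    · rintro ⟨b, hb, hbc⟩
      obtain ⟨v, rfl⟩ := hBmem b hb
      refine ⟨φ (π v) 0, Subtype.ext ((hVmk _ _).mpr (funext fun j => ?_))⟩
      have hv := (hCt v).mp (Subgroup.mem_centralizer_singleton_iff.mp hbc)
      rcases Nat.lt_or_ge j p with hj | hj
      · rw [hrepv, hrep _ j hj]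
        rcases Nat.eq_zero_or_pos j with rfl | hj0
        · rw [if_pos rfl]
        · rw [if_neg hj0.ne', show j = j - 1 + 1 by omega, hv]
      · rw [hφtop _ _ hj, hφtop _ _ hj]
  -- move to `Type`
  haveI : Small.{0} (Kg ⧸ N.subgroupOf Kg) := Countable.toSmall _
  let e : Shrink.{0} (Kg ⧸ N.subgroupOf Kg) ≃* (Kg ⧸ N.subgroupOf Kg) := Shrink.mulEquiv
  let e' := e.symm
  refine ⟨Shrink.{0} (Kg ⧸ N.subgroupOf Kg), inferInstance, Finite.of_equiv _ e'.toEquiv,
    ⟨B.map e'.toMonoidHom, e' t, hBn.map _ e'.surjective, ⟨⟨?_⟩⟩, ?_, ?_, ?_, ?_, ?_, ?_⟩, ?_⟩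
  · rintro ⟨_, a, ha, rfl⟩ ⟨_, b, hb, rfl⟩
    refine Subtype.ext ?_
    show e' a * e' b = e' b * e' a
    rw [← map_mul, ← map_mul, show a * b = b * a from congrArg Subtype.val (hBcomm.is_comm.comm ⟨a, ha⟩ ⟨b, hb⟩)]
  · rintro _ ⟨b, hb, rfl⟩
    rw [← map_pow, hBexp b hb, map_one]
  · rw [← hBcard]; exact (Nat.card_congr (e'.subgroupMap B).toEquiv).symm
  · rw [← hto]; exact orderOf_injective e'.toMonoidHom e'.injective t
  · rintro ⟨b, hb, hbe⟩; exact htB (e'.injective hbe ▸ hb)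
  · rw [← hWcard]; exact Nat.card_congr e.toEquiv
  · rw [show Subgroup.centralizer ({e' t} : Set (Shrink.{0} (Kg ⧸ N.subgroupOf Kg))) =
        (Subgroup.centralizer ({t} : Set (Kg ⧸ N.subgroupOf Kg))).map e'.toMonoidHom by
      ext y
      rw [Subgroup.mem_centralizer_singleton_iff]
      refine ⟨fun h => ⟨e y, Subgroup.mem_centralizer_singleton_iff.mpr (e'.injective ?_), e.symm_apply_apply y⟩, ?_⟩
      · rw [map_mul, map_mul, show e' (e y) = y from e.symm_apply_apply y, h]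
      · rintro ⟨z, hz, rfl⟩
        show e' z * e' t = e' t * e' z
        rw [← map_mul, ← map_mul, Subgroup.mem_centralizer_singleton_iff.mp hz],
      ← Subgroup.map_inf _ _ _ e'.injective]
    exact (Nat.card_congr (e'.subgroupMap _).toEquiv).symm.trans hcc
  · -- the section of `P`
    let K' : Subgroup P := Kg.subgroupOf P
    let R' : Subgroup P := N.subgroupOf P
    let i : K' ≃* Kg := Subgroup.subgroupOfEquivOfLe hKgP
    have hR' : R'.subgroupOf K' = (N.subgroupOf Kg).comap i.toMonoidHom := by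
      ext y; rfl
    haveI : (R'.subgroupOf K').Normal := by rw [hR']; exact hNn.comap _
    refine ⟨K', R', inferInstance, ⟨?_⟩⟩
    refine (QuotientGroup.congr (R'.subgroupOf K') (N.subgroupOf Kg) i ?_).trans e'
    rw [hR']
    exact Subgroup.map_comap_eq_self_of_surjective i.surjective _

end Cfsg.Agent.Core.HH
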